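import Mathlib

set_option autoImplicit false

/-!
Four non-zero scalars with sum zero and prescribed product up to fourth powers.
-/

namespace Cfsg.Agent.H99.SLFour

variable {F : Type*} [Field F] [Fintype F]

theorem squares_not_shift {h : F} {t : F} (h2 : (2 : F) ≠ 0) (ht : t ≠ 0) (hh : h = t ^ 4) (h1 : h ≠ 1) :
    ∃ x : F, ∀ y : F, h * (x * (1 - x)) ≠ y * (1 - y) := by
  by_contra hc
  push Not at hc
  set τ := h⁻¹ - 1 with hτ
  have hh0 : h ≠ 0 := by rw [hh]; exact pow_ne_zero 4 ht
  have hτ0 : τ ≠ 0 := sub_ne_zero.mpr fun e => h1 (by simpa using congrArg (·⁻¹) e)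
  have hshift : ∀ a : F, IsSquare a → IsSquare (a + τ) := by
    rintro a ⟨s, rfl⟩
    obtain ⟨y, hy⟩ := hc ((1 - s) / 2)
    refine ⟨(1 - 2 * y) / (t * t), ?_⟩
    have hy' : h * (1 - s * s) = 4 * (y * (1 - y)) := by
      rw [← hy]; field_simp; ring
    rw [hτ, hh]
    rw [hh] at hy'
    field_simp
    linear_combination -hy'
  have hmul : ∀ a z : F, IsSquare a → IsSquare (a + τ * (z * z)) := by
    intro a z ha
    rcases eq_or_ne z 0 with rfl | hz
    · simpa using ha
    have h' := hshift (a / (z * z)) (ha.div ⟨z, rfl⟩)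
    have := h'.mul (⟨z, rfl⟩ : IsSquare (z * z))
    rwa [add_mul, div_mul_cancel₀ _ (mul_ne_zero hz hz)] at this
  have hchar : ringChar F ≠ 2 := fun e => h2 (by
    have := ringChar.Nat.cast_ringChar (R := F)
    rw [e] at this
    exact_mod_cast this)
  obtain ⟨w, hw⟩ := FiniteField.exists_nonsquare hchar
  obtain ⟨a, b, hab⟩ := FiniteField.exists_root_sum_quadratic
    (f := Polynomial.X ^ 2) (g := Polynomial.X ^ 2 - Polynomial.C (w / τ))
    (Polynomial.degree_X_pow 2) (Polynomial.degree_X_pow_sub_C (by norm_num) _)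
    (Nat.odd_iff.mp (Nat.not_even_iff_odd.mp fun he =>
      hchar (FiniteField.even_card_iff_char_two.mpr (Nat.even_iff.mp he))))
  simp at hab
  refine hw ?_
  have h0 := hmul _ b (hmul 0 a IsSquare.zero)
  have e : w / τ = a * a + b * b := by linear_combination -hab
  rw [div_eq_iff hτ0] at e
  rw [e]
  convert h0 using 1
  ring

open Classical in
theorem exists_four_sum (hq : 7 ≤ Fintype.card F) {K : F} (hK : K ≠ 0) :
    ∃ u : Fin 4 → F, (∀ i, u i ≠ 0) ∧ u 0 + u 1 + u 2 + u 3 = 0 ∧
      (∃ k : F, k ≠ 0 ∧ u 0 * u 1 * u 2 * u 3 = K * k ^ 4) ∧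
      (u 1 / u 0) ^ 2 ≠ 1 ∧ (u 1 / u 0) ^ 2 + u 1 / u 0 + 1 ≠ 0 := by
  set H : Finset F := Finset.univ.filter fun x => ∃ k : F, k ≠ 0 ∧ x = k ^ 4 with hH
  set W : Finset F := (Finset.univ.filter fun x : F => x ≠ 0 ∧ x ≠ 1).image fun x => x * (1 - x) with hW
  set good : Finset F := W.filter fun v => v ≠ 1 ∧ 4 * v ≠ 1 with hgood
  have hWmem : ∀ {v}, v ∈ W ↔ ∃ x : F, (x ≠ 0 ∧ x ≠ 1) ∧ x * (1 - x) = v := fun {v} => by simp [hW]
  have hW0 : ∀ v ∈ W, v ≠ 0 := fun v hv => by
    obtain ⟨x, hx, rfl⟩ := hWmem.mp hv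
    exact mul_ne_zero hx.1 (sub_ne_zero.mpr (Ne.symm hx.2))
  by_contra hcon
  have hdis : ∀ v ∈ good, ∀ v' ∈ W, ∀ k : F, k ≠ 0 → v * v' ≠ K * k ^ 4 := by
    intro v hv v' hv' k hk he
    refine hcon ?_
    simp only [hgood, Finset.mem_filter] at hv
    obtain ⟨x, hx, rfl⟩ := hWmem.mp hv.1
    obtain ⟨y, hy, rfl⟩ := hWmem.mp hv'
    refine ⟨![x, 1 - x, -y, y - 1], ?_, ?_, ⟨k, hk, ?_⟩, ?_, ?_⟩
    · intro i
      fin_cases i
      · exact hx.1
      · exact sub_ne_zero.mpr (Ne.symm hx.2)
      · exact neg_ne_zero.mpr hy.1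
      · exact sub_ne_zero.mpr hy.2
    · simp; ring
    · simp; linear_combination he
    · show ((1 - x) / x) ^ 2 ≠ 1
      intro h'
      refine hv.2.2 ?_
      have hx0 := hx.1
      field_simp at h'
      linear_combination (-(1 - 2 * x)) * h'
    · show ((1 - x) / x) ^ 2 + (1 - x) / x + 1 ≠ 0
      intro h'
      refine hv.2.1 ?_
      have hx0 := hx.1
      field_simp at h'
      linear_combination -h'
  set R : Finset F := (good ×ˢ H).image fun p => K * p.2 / p.1 with hR
  have hH0 : ∀ h ∈ H, h ≠ 0 := fun h hh => by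
    simp [hH] at hh; obtain ⟨k, hk, rfl⟩ := hh; exact pow_ne_zero 4 hk
  have hgW : good ⊆ W := Finset.filter_subset _ _
  have hsub : W ∪ R ⊆ Finset.univ.erase 0 := by
    intro x hx
    rw [Finset.mem_erase]
    refine ⟨?_, Finset.mem_univ _⟩
    rcases Finset.mem_union.mp hx with hx | hx
    · exact hW0 x hx
    · obtain ⟨⟨v, h⟩, hp, rfl⟩ := Finset.mem_image.mp hx
      rw [Finset.mem_product] at hp
      exact div_ne_zero (mul_ne_zero hK (hH0 h hp.2)) (hW0 v (hgW hp.1))
  have hWR : Disjoint W R := by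
    rw [Finset.disjoint_left]
    intro x hx hxR
    obtain ⟨⟨v, h⟩, hp, rfl⟩ := Finset.mem_image.mp hxR
    rw [Finset.mem_product] at hp
    obtain ⟨k, hk, rfl⟩ : ∃ k : F, k ≠ 0 ∧ h = k ^ 4 := by simpa [hH] using hp.2
    refine hdis v hp.1 _ hx k hk ?_
    have := hW0 v (hgW hp.1)
    field_simp
  have hcardH : H.card * Nat.gcd (Fintype.card F - 1) 4 = Fintype.card F - 1 := by
    have e : H = ((powMonoidHom 4 : Fˣ →* Fˣ).range : Set Fˣ).toFinset.map ⟨Units.val, Units.val_injective⟩ := by
      ext x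
      simp only [hH, Finset.mem_filter, Finset.mem_univ, true_and, Finset.mem_map, Set.mem_toFinset,
        SetLike.mem_coe, MonoidHom.mem_range, powMonoidHom_apply, Function.Embedding.coeFn_mk]
      constructor
      · rintro ⟨k, hk, rfl⟩
        exact ⟨Units.mk0 k hk ^ 4, ⟨_, rfl⟩, by simp⟩
      · rintro ⟨_, ⟨k, rfl⟩, rfl⟩
        exact ⟨k, k.ne_zero, by simp⟩
    rw [e, Finset.card_map, Set.toFinset_card, ← Fintype.card_units, ← Nat.card_eq_fintype_card,
      ← Nat.card_eq_fintype_card, SetLike.coe_sort_coe, ← IsCyclic.index_powMonoidHom_range (G := Fˣ) 4,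
      Subgroup.card_mul_index]
  have hWcard : Fintype.card F ≤ 2 * W.card + 2 := by
    have h1 := Finset.card_le_mul_card_image (f := fun x => x * (1 - x))
      (Finset.univ.filter fun x : F => x ≠ 0 ∧ x ≠ 1) 2 fun a ha => by
        obtain ⟨x, hx, rfl⟩ := Finset.mem_image.mp ha
        refine (Finset.card_le_card (t := {x, 1 - x}) fun y hy => ?_).trans Finset.card_le_two
        simp at hy ⊢
        have : (y - x) * (1 - x - y) = 0 := by linear_combination hy.2
        rcases mul_eq_zero.mp this with h | h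
        · exact Or.inl (sub_eq_zero.mp h)
        · exact Or.inr (sub_eq_zero.mp h).symm
    rw [← hW] at h1
    have h3 : Fintype.card F ≤ (Finset.univ.filter fun x : F => x ≠ 0 ∧ x ≠ 1).card + 2 := by
      have hs : (Finset.univ : Finset F) ⊆ (Finset.univ.filter fun x : F => x ≠ 0 ∧ x ≠ 1) ∪ {0, 1} := fun x _ => by
        simp; tauto
      rw [← Finset.card_univ]
      exact (Finset.card_le_card hs).trans ((Finset.card_union_le _ _).trans
        (Nat.add_le_add_left Finset.card_le_two _))
    omega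
  have hgoodcard : W.card ≤ good.card + 2 ∧ ((3 : F) = 0 → W.card ≤ good.card + 1) := by
    constructor
    · by_cases h4 : (4 : F) = 0
      · have : W ⊆ good ∪ {1} := fun v hv => by simp [hgood, hv, h4]; tauto
        have := (Finset.card_le_card this).trans (Finset.card_union_le _ _)
        simp at this; omega
      · have : W ⊆ good ∪ {1, 4⁻¹} := fun v hv => by
          by_cases h : v = 1
          · simp [h]
          by_cases h' : 4 * v = 1
          · simp [eq_inv_of_mul_eq_one_right h']
          simp [hgood, hv, h, h']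
        exact (Finset.card_le_card this).trans ((Finset.card_union_le _ _).trans
          (Nat.add_le_add_left Finset.card_le_two _))
    · intro h3
      have : W ⊆ good ∪ {1} := fun v hv => by
        have e4 : (4 : F) = 1 := by linear_combination h3
        simp [hgood, hv, e4]; tauto
      have := (Finset.card_le_card this).trans (Finset.card_union_le _ _)
      simp at this; omega
  have hR1 : ∀ v ∈ good, H.card ≤ R.card := fun v hv => by
    refine Finset.card_le_card_of_injOn (fun h => K * h / v)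
      (fun h hh => Finset.mem_image.mpr ⟨(v, h), Finset.mem_product.mpr ⟨hv, hh⟩, rfl⟩) fun a _ b _ hab => ?_
    have := hW0 v (hgW hv)
    field_simp at hab
    exact hab
  have hR2 : H.card < good.card → 2 * H.card ≤ R.card := by
    intro hlt
    obtain ⟨v, hv⟩ := Finset.card_pos.mp (show 0 < good.card by omega)
    obtain ⟨v', hv', hne⟩ : ∃ v' ∈ good, ∀ h ∈ H, v' ≠ v * h := by
      by_contra hc
      push Not at hc
      have : good ⊆ H.image fun h => v * h := fun v' hv' => by
        obtain ⟨h, hh, e⟩ := hc v' hv'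
        exact Finset.mem_image.mpr ⟨h, hh, e.symm⟩
      have := (Finset.card_le_card this).trans Finset.card_image_le
      omega
    set A := H.image fun h => K * h / v
    set B := H.image fun h => K * h / v'
    have hinj : ∀ w : F, w ≠ 0 → (H.image fun h => K * h / w).card = H.card := fun w hw =>
      Finset.card_image_of_injective _ fun a b hab => by field_simp at hab; exact hab
    have hAB : Disjoint A B := by
      rw [Finset.disjoint_left]
      intro x hxA hxB
      obtain ⟨a, ha, rfl⟩ := Finset.mem_image.mp hxA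
      obtain ⟨b, hb, hbe⟩ := Finset.mem_image.mp hxB
      obtain ⟨k, hk, rfl⟩ : ∃ k : F, k ≠ 0 ∧ a = k ^ 4 := by simpa [hH] using ha
      obtain ⟨l, hl, rfl⟩ : ∃ l : F, l ≠ 0 ∧ b = l ^ 4 := by simpa [hH] using hb
      refine hne ((l / k) ^ 4) (by simp [hH]; exact ⟨l / k, div_ne_zero hl hk, by ring⟩) ?_
      have := hW0 v (hgW hv)
      have := hW0 v' (hgW hv')
      field_simp at hbe ⊢
      linear_combination -hbe
    have hsubR : A ∪ B ⊆ R := by
      intro x hx
      rcases Finset.mem_union.mp hx with hx | hx <;>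
        obtain ⟨h, hh, rfl⟩ := Finset.mem_image.mp hx
      · exact Finset.mem_image.mpr ⟨(v, h), Finset.mem_product.mpr ⟨hv, hh⟩, rfl⟩
      · exact Finset.mem_image.mpr ⟨(v', h), Finset.mem_product.mpr ⟨hv', hh⟩, rfl⟩
    have := Finset.card_le_card hsubR
    rw [Finset.card_union_of_disjoint hAB, hinj v (hW0 v (hgW hv)), hinj v' (hW0 v' (hgW hv'))] at this
    omega
  have htot : W.card + R.card ≤ Fintype.card F - 1 := by
    have := Finset.card_le_card hsub
    rwa [Finset.card_union_of_disjoint hWR, Finset.card_erase_of_mem (Finset.mem_univ _), Finset.card_univ] at this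
  obtain ⟨v₀, hv₀⟩ : good.Nonempty := Finset.card_pos.mp (by omega)
  have hR1' := hR1 v₀ hv₀
  have h2 : (2 : F) ≠ 0 := by
    intro h2
    haveI : CharP F 2 := CharTwo.of_one_ne_zero_of_two_eq_zero one_ne_zero h2
    have hev := FiniteField.even_card_iff_char_two.mp (ringChar.eq F 2)
    have hg : Nat.gcd (Fintype.card F - 1) 4 = 1 := by
      have : Nat.Coprime (Fintype.card F - 1) (2 ^ 2) := Nat.Coprime.pow_right 2
        (Nat.coprime_two_right.mpr (Nat.odd_iff.mpr (by omega)))
      simpa using this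
    rw [hg, mul_one] at hcardH
    omega
  have hodd : Fintype.card F % 2 = 1 := by
    rcases Nat.mod_two_eq_zero_or_one (Fintype.card F) with h | h
    · have hr := FiniteField.even_card_iff_char_two.mpr h
      exact absurd (by have := ringChar.Nat.cast_ringChar (R := F); rw [hr] at this; exact_mod_cast this) h2
    · exact h
  have hfull : Fintype.card F - 1 ≤ W.card + R.card := by
    have hd : Nat.gcd (Fintype.card F - 1) 4 ∣ 4 := Nat.gcd_dvd_right _ _
    have hle := Nat.le_of_dvd (by norm_num) hd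
    interval_cases hg : Nat.gcd (Fintype.card F - 1) 4
    · simp at hcardH; omega
    · omega
    · omega
    · omega
    · by_cases h9 : Fintype.card F = 9
      · have h3 : (3 : F) = 0 := by
          have := Nat.cast_card_eq_zero F
          rw [h9] at this
          have e : (3 : F) * 3 = 0 := by exact_mod_cast this
          exact mul_self_eq_zero.mp e
        have := hgoodcard.2 h3
        have := hR2 (by omega)
        omega
      · have := hR2 (by omega)
        omega
  -- the complement of `R` is invariant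
  have hH2 : 2 ≤ H.card := by
    have := Nat.le_of_dvd (by norm_num) (Nat.gcd_dvd_right (Fintype.card F - 1) 4)
    by_contra hlt
    interval_cases H.card <;> omega
  obtain ⟨h, hh, hh1⟩ := Finset.exists_mem_ne (s := H) (by omega) 1
  obtain ⟨t, ht, hte⟩ : ∃ t : F, t ≠ 0 ∧ h = t ^ 4 := by simpa [hH] using hh
  have hcompl : ∀ x : F, x ≠ 0 → x ∈ W ∪ R := by
    have he : W ∪ R = Finset.univ.erase 0 := Finset.eq_of_subset_of_card_le hsub (by
      rw [Finset.card_union_of_disjoint hWR, Finset.card_erase_of_mem (Finset.mem_univ _), Finset.card_univ]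
      exact hfull)
    intro x hx
    rw [he]
    simp [hx]
  obtain ⟨x, hx⟩ := squares_not_shift h2 ht hte hh1
  have hx01 : x ≠ 0 ∧ x ≠ 1 := by
    constructor <;> rintro rfl <;> exact hx 0 (by ring)
  have hxW : x * (1 - x) ∈ W := hWmem.mpr ⟨x, hx01, rfl⟩
  rcases Finset.mem_union.mp (hcompl (h * (x * (1 - x))) (mul_ne_zero (hH0 h hh) (hW0 _ hxW))) with hm | hm
  · obtain ⟨y, -, hy⟩ := hWmem.mp hm
    exact hx y hy.symm
  · obtain ⟨⟨v, a⟩, hp, hva⟩ := Finset.mem_image.mp hm
    rw [Finset.mem_product] at hp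
    obtain ⟨k, hk, rfl⟩ : ∃ k : F, k ≠ 0 ∧ a = k ^ 4 := by simpa [hH] using hp.2
    refine hdis v hp.1 _ hxW (k / t) (div_ne_zero hk ht) ?_
    have := hW0 v (hgW hp.1)
    rw [hte] at hva
    simp only at hva
    generalize x * (1 - x) = w at hva ⊢
    field_simp at hva ⊢
    linear_combination -hva

end Cfsg.Agent.H99.SLFour
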