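import Cfsg.Agent.H50.LowDim.Decomp
import Cfsg.Agent.H99.SLFour.FourSum
import Cfsg.Agent.H99.SLFour.MonoSingle

set_option autoImplicit false
set_option linter.unusedSectionVars false

/-!
The stabiliser of four independent lines is maximal in the four dimensional special linear group over at least
seven scalars.
-/

namespace Cfsg.Agent.H99.SLFour

open Matrix Cfsg.Agent.H1.Decomp

variable {F : Type*} [Field F] [Fintype F]

local notation "G₄" => GL (Fin 4) F
local notation "M₄" => Matrix (Fin 4) (Fin 4) F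

/-- Transposition composed with inversion. -/
def transInv : G₄ →* G₄ where
  toFun x := ⟨((x⁻¹ : G₄) : M₄)ᵀ, (x : M₄)ᵀ,
    by rw [← transpose_mul, ← Units.val_mul, mul_inv_cancel, Units.val_one, transpose_one],
    by rw [← transpose_mul, ← Units.val_mul, inv_mul_cancel, Units.val_one, transpose_one]⟩
  map_one' := Units.ext (by simp)
  map_mul' x y := Units.ext (by simp [_root_.mul_inv_rev, transpose_mul])

variable {M : Subgroup (GL (Fin 4) F)}

theorem containsMon_dual (hM : ContainsMon M) : ContainsMon (M.comap transInv) := by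
  intro π d hd
  rw [Subgroup.mem_comap]
  have e : transInv (monGL π d) = monGL π (fun i => (d i)⁻¹) := by
    refine Units.ext ?_
    change (((monGL π d)⁻¹ : G₄) : M₄)ᵀ = _
    rw [monGL_inv_coe, monGL_coe]
    ext k i
    simp only [transpose_apply, monMat, Matrix.of_apply]
    by_cases h : k = π i
    · subst h; simp
    · rw [if_neg h, if_neg (fun h' => h (by rw [h', Equiv.apply_symm_apply]))]
  rw [e]
  refine hM _ _ ?_
  have hs : ((Equiv.Perm.sign π : ℤ) : F) * ((Equiv.Perm.sign π : ℤ) : F) = 1 := by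
    rw [← Int.cast_mul, ← Units.val_mul, Int.units_mul_self, Units.val_one, Int.cast_one]
  have hp : (∏ i, ((d i)⁻¹ : Fˣ) : F) * ∏ i, (d i : F) = 1 := by
    rw [← Finset.prod_mul_distrib]; exact Finset.prod_eq_one fun i _ => by simp
  linear_combination (((Equiv.Perm.sign π : ℤ) : F) * (∏ i, ((d i)⁻¹ : Fˣ) : F)) * (-hd) +
    ((Equiv.Perm.sign π : ℤ) : F) * ((Equiv.Perm.sign π : ℤ) : F) * hp + hs

theorem root_of_singleton_row (hq : 5 ≤ Fintype.card F) (hM : ContainsMon M) {g : G₄} (hg : g ∈ M)
    (hgm : ¬ IsMono (g : M₄)) {i k : Fin 4} (hrow : ∀ l, l ≠ k → (g : M₄) i l = 0) : HasRoot M := by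
  set y := transInv g⁻¹ with hy
  have hyv : (y : M₄) = (g : M₄)ᵀ := by rw [hy]; simp [transInv]
  have hyM : y ∈ M.comap transInv := by
    rw [Subgroup.mem_comap, hy, show transInv (transInv g⁻¹) = g⁻¹ from Units.ext (show ((g⁻¹ : G₄) : M₄)ᵀᵀ = _ from transpose_transpose _)]
    exact M.inv_mem hg
  have hym : ¬ IsMono (y : M₄) := fun h => hgm (by
    have := h.transpose
    rwa [hyv, transpose_transpose] at this)
  obtain ⟨a, b, hab, c, hc, x, hxM, hx⟩ := root_of_singleton_col₄ hq (by simp) (containsMon_dual hM) hyM hym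
    (i := i) (k := k) fun l hl => by rw [hyv, transpose_apply]; exact hrow l hl
  refine ⟨b, a, hab.symm, -c, neg_ne_zero.mpr hc, transInv x, hxM, ?_⟩
  have hxi : ((x⁻¹ : G₄) : M₄) = 1 + vecMulVec (Pi.single a (-c)) (Pi.single b 1) := by
    refine Units.inv_eq_of_mul_eq_one_right ?_
    rw [hx, one_add_mul_one_add, Pi.single_neg, neg_vecMulVec]
    simp [hab.symm]
  change ((x⁻¹ : G₄) : M₄)ᵀ = _
  rw [hxi]
  ext r s
  simp only [transpose_apply, Matrix.add_apply, vecMulVec_apply, Matrix.one_apply, Pi.single_apply, eq_comm (a := s) (b := r)]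
  split_ifs <;> simp

theorem perm_four (π : Equiv.Perm (Fin 4)) :
    π = 1 ∨ π * π = 1 ∨ π * π * π = 1 ∨ ∀ x, π x ≠ x := by revert π; decide

theorem exists_two_other : ∀ l s : Fin 4, ∃ r₁ r₂ : Fin 4, r₁ ≠ r₂ ∧ r₁ ≠ l ∧ r₁ ≠ s ∧ r₂ ≠ l ∧ r₂ ≠ s := by
  decide

theorem perm_four_fix (π : Equiv.Perm (Fin 4)) (i : Fin 4) (h : π i = i) :
    π = 1 ∨ π * π = 1 ∨ ∀ x, π x = x → x = i := by revert π i; decide

theorem exists_eigen (hq : 7 ≤ Fintype.card F) : ∃ x : F, x ≠ 0 ∧ x ^ 4 ≠ 1 ∧ x ^ 2 + x + 1 ≠ 0 := by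
  classical
  by_contra hc
  push Not at hc
  have hne : ((Polynomial.X * (Polynomial.X ^ 4 - 1)) * (Polynomial.X ^ 2 + Polynomial.X + 1) : Polynomial F) ≠ 0 := by
    intro h
    have := congrArg (fun P => Polynomial.coeff P 1) h
    simp [mul_assoc, Polynomial.coeff_X_mul, Polynomial.mul_coeff_zero] at this
  have hroot : (Finset.univ : Finset F) ⊆
      ((Polynomial.X * (Polynomial.X ^ 4 - 1)) * (Polynomial.X ^ 2 + Polynomial.X + 1) : Polynomial F).roots.toFinset := by
    intro x _
    rw [Multiset.mem_toFinset, Polynomial.mem_roots hne]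
    simp only [Polynomial.IsRoot, Polynomial.eval_mul, Polynomial.eval_add, Polynomial.eval_sub, Polynomial.eval_one,
      Polynomial.eval_pow, Polynomial.eval_X]
    by_cases h0 : x = 0
    · simp [h0]
    by_cases h4 : x ^ 4 = 1
    · simp [h4]
    simp [hc x h0 h4]
  have hle : Fintype.card F ≤ 7 := by
    rw [← Finset.card_univ]
    refine (Finset.card_le_card hroot).trans ((Multiset.toFinset_card_le _).trans
      ((Polynomial.card_roots' _).trans ?_))
    compute_degree
  have h7 : (7 : F) = 0 := by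
    have := Nat.cast_card_eq_zero F
    rw [show Fintype.card F = 7 by omega] at this
    exact_mod_cast this
  have h30 : (3 : F) ≠ 0 := fun h => one_ne_zero (α := F) (by linear_combination h7 - 2 * h)
  exact one_ne_zero (α := F) (by
    linear_combination 6 * hc 3 h30 (fun h => h30 (by linear_combination h - 11 * h7)) - 11 * h7)

theorem conj_diag_apply (g : G₄) (d : Fin 4 → Fˣ) (r s : Fin 4) :
    ((g * monGL 1 d * g⁻¹ : G₄) : M₄) r s = ∑ k, (g : M₄) r k * (d k : F) * ((g⁻¹ : G₄) : M₄) k s := by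
  rw [Units.val_mul, Units.val_mul, monGL_coe, one_monMat_apply, Matrix.mul_apply]
  simp [Matrix.mul_diagonal]

/-- The monomial group and a non-monomial element give a root element. -/
theorem root_of_nonmonomial_four (hq : 7 ≤ Fintype.card F) (hM : ContainsMon M) {g : G₄} (hg : g ∈ M)
    (hgm : ¬ IsMono (g : M₄)) : HasRoot M := by
  classical
  by_contra hno
  have hcol : ∀ g ∈ M, ¬ IsMono (g : M₄) → ∀ i k, ∃ l, l ≠ k ∧ (g : M₄) l i ≠ 0 := by
    intro g hg hgm i k
    by_contra hc
    push Not at hc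
    exact hno (root_of_singleton_col₄ (by omega) (by simp) hM hg hgm (i := i) (k := k) hc)
  have hrow : ∀ g ∈ M, ¬ IsMono (g : M₄) → ∀ i k, ∃ l, l ≠ k ∧ (g : M₄) i l ≠ 0 := by
    intro g hg hgm i k
    by_contra hc
    push Not at hc
    exact hno (root_of_singleton_row (by omega) hM hg hgm (i := i) (k := k) hc)
  have hdiag : ∀ d : Fin 4 → Fˣ, ∏ i, (d i : F) = 1 → monGL 1 d ∈ M := fun d hd =>
    hM _ _ (by simpa using hd)
  obtain ⟨x, hx0, hx4, hx3⟩ := exists_eigen hq
  have hfull : ∀ g ∈ M, ¬ IsMono (g : M₄) → ∀ l i, (g : M₄) l i ≠ 0 := by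
    intro g hg hgm l i hli
    have hgi : ∀ r c, ((g⁻¹ * g : G₄) : M₄) r c = (1 : M₄) r c := fun r c => by rw [inv_mul_cancel, Units.val_one]
    by_cases hsec : ∃ m, m ≠ l ∧ (g : M₄) m i = 0
    · -- two zeros in the column
      obtain ⟨m, hml, hmi⟩ := hsec
      set d : Fin 4 → Fˣ := fun r => if r = l then Units.mk0 x hx0 else if r = m then (Units.mk0 x hx0)⁻¹ else 1
        with hd
      have hdprod : ∏ r, (d r : F) = 1 := by
        rw [← Finset.prod_subset (Finset.subset_univ ({l, m} : Finset (Fin 4)))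
          (fun r _ hr => by simp at hr; simp [hd, hr]), Finset.prod_pair hml.symm]
        simp [hd, hml, hx0]
      set z := g⁻¹ * monGL 1 d * g with hz
      have hzM : z ∈ M := M.mul_mem (M.mul_mem (M.inv_mem hg) (hdiag d hdprod)) hg
      have hzi : ∀ c, (z : M₄) c i = (1 : M₄) c i := by
        intro c
        rw [← hgi, hz, Units.val_mul, Units.val_mul, monGL_coe, one_monMat_apply, Matrix.mul_apply, Units.val_mul,
          Matrix.mul_apply]
        refine Finset.sum_congr rfl fun r _ => ?_
        rw [Matrix.mul_diagonal]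
        by_cases h1 : r = l
        · subst h1; simp [hli]
        by_cases h2 : r = m
        · subst h2; simp [hmi]
        simp [hd, h1, h2]
      have hzm : IsMono (z : M₄) := by
        by_contra h
        obtain ⟨c, hc, hne⟩ := hcol z hzM h i i
        exact hne (by rw [hzi, Matrix.one_apply_ne hc])
      obtain ⟨π, e, hπe⟩ := exists_monGL_of_isMono hzm
      have hπi : π i = i := by
        have := hzi (π i)
        rw [hπe, monGL_coe] at this
        simp [monMat, Matrix.one_apply] at this
        by_contra hne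
        rw [if_neg hne] at this
        exact (e i).ne_zero this
      have hei : (e i : F) = 1 := by
        have := hzi i
        rw [hπe, monGL_coe] at this
        simpa [monMat, hπi] using this
      have hgz : ∀ r c, (g : M₄) r (π c) * (e c : F) = (d r : F) * (g : M₄) r c := by
        intro r c
        have h : (g * z : G₄) = monGL 1 d * g := by rw [hz]; group
        have h' : ((g * z : G₄) : M₄) r c = ((monGL 1 d * g : G₄) : M₄) r c := by rw [h]
        rw [hπe, Units.val_mul, Units.val_mul, monGL_coe, monGL_coe, one_monMat_apply, Matrix.diagonal_mul,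
          Matrix.mul_apply, Finset.sum_eq_single (π c) (fun b _ hb => by simp [monMat, hb]) (by simp)] at h'
        simpa [monMat] using h'
      have hclass : ∀ (μ : F) (E : Fin 4 → F), μ ≠ 0 → μ ≠ 1 → μ * μ ≠ 1 → (∀ r c, (g : M₄) r c * E c =
          (if r = l then μ else if r = m then μ⁻¹ else 1) * (g : M₄) r c) → False := by
        intro μ E hμ0 hμ1 hμ2 hE
        obtain ⟨c, -, hc⟩ := hrow g hg hgm l l
        obtain ⟨r, hrl, hrc⟩ := hcol g hg hgm c l
        have h1 := hE l c
        have h2 := hE r c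
        rw [if_pos rfl, mul_comm μ] at h1
        rw [if_neg hrl, mul_comm _ ((g : M₄) r c)] at h2
        have e1 := mul_left_cancel₀ hc h1
        have e2 := mul_left_cancel₀ hrc h2
        rw [e1] at e2
        split_ifs at e2
        · exact hμ2 (by nth_rw 2 [e2]; exact mul_inv_cancel₀ hμ0)
        · exact hμ1 e2
      have hx1 : x ≠ 1 := fun h => hx4 (by rw [h, one_pow])
      have hx2 : x * x ≠ 1 := fun h => hx4 (by linear_combination (x * x + 1) * h)
      have hdval : ∀ r, (d r : F) = if r = l then x else if r = m then x⁻¹ else 1 := fun r => by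
        simp only [hd]; split_ifs <;> simp
      rcases perm_four_fix π i hπi with rfl | hπ | hπ
      · exact hclass x (fun c => (e c : F)) hx0 hx1 hx2 fun r c => by simpa [hdval] using hgz r c
      · refine hclass (x * x) (fun c => (e (π c) : F) * e c) (mul_ne_zero hx0 hx0) hx2
          (fun h => hx4 (by linear_combination h)) fun r c => ?_
        have h1 := hgz r (π c)
        rw [show π (π c) = c from by rw [← Equiv.Perm.mul_apply, hπ]; rfl, hdval] at h1
        have h2 := hgz r c
        rw [hdval] at h2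
        split_ifs at h1 h2 ⊢
        · linear_combination (e c : F) * h1 + x * h2
        · rw [mul_inv]; linear_combination (e c : F) * h1 + x⁻¹ * h2
        · linear_combination (e c : F) * h1 + h2
      · -- a three cycle
        have htr : (z : M₄).trace = (monGL 1 d : M₄).trace := by
          rw [hz, Units.val_mul, Units.val_mul, Matrix.trace_mul_cycle, ← Units.val_mul, mul_inv_cancel, Units.val_one,
            one_mul]
        rw [hπe, monGL_coe, monGL_coe, one_monMat_apply, Matrix.trace_diagonal, Matrix.trace,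
          Finset.sum_eq_single i (fun b _ hb => by simp [monMat]; intro h; exact absurd (hπ b h.symm) hb) (by simp)] at htr
        have hsum : ∑ r, (d r : F) = x + x⁻¹ + 2 := by
          have hsplit : ∀ r, (d r : F) = 1 + ((if r = l then x - 1 else 0) + (if r = m then x⁻¹ - 1 else 0)) := fun r => by
            rw [hdval]
            by_cases h1 : r = l
            · subst h1; simp [hml.symm]
            · by_cases h2 : r = m
              · subst h2; simp [h1]
              · simp [h1, h2]
          simp only [hsplit, Finset.sum_add_distrib, Finset.sum_ite_eq', Finset.mem_univ, if_true, Finset.sum_const,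
            Finset.card_univ, Fintype.card_fin, nsmul_eq_mul, mul_one, Nat.cast_ofNat]
          ring
        simp only [Matrix.diag_apply, monMat, Matrix.of_apply, hπi, if_true, hei, hsum] at htr
        field_simp at htr
        exact hx3 (by linear_combination -htr)
    · -- one zero in the column
      push Not at hsec
      set d : Fin 4 → Fˣ := fun r => if r = i then ((Units.mk0 x hx0) ^ 3)⁻¹ else Units.mk0 x hx0 with hd
      have hdprod : ∏ r, (d r : F) = 1 := by
        rw [← Finset.mul_prod_erase Finset.univ _ (Finset.mem_univ i),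
          Finset.prod_congr rfl (fun r hr => show (d r : F) = x by simp [hd, (Finset.mem_erase.mp hr).1]),
          Finset.prod_const, Finset.card_erase_of_mem (Finset.mem_univ i), Finset.card_univ, Fintype.card_fin]
        simp [hd, hx0]
      set y := g * monGL 1 d * g⁻¹ with hy
      have hyM : y ∈ M := M.mul_mem (M.mul_mem hg (hdiag d hdprod)) (M.inv_mem hg)
      have hy' : ∀ r s, (y : M₄) r s = (if r = s then x else 0) +
          ((x ^ 3)⁻¹ - x) * (g : M₄) r i * ((g⁻¹ : G₄) : M₄) i s := by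
        intro r s
        have h1 : ((g * g⁻¹ : G₄) : M₄) r s = (1 : M₄) r s := by rw [mul_inv_cancel, Units.val_one]
        rw [Units.val_mul, Matrix.mul_apply, Matrix.one_apply] at h1
        rw [hy, conj_diag_apply]
        have hsplit : ∀ k, (g : M₄) r k * (d k : F) * ((g⁻¹ : G₄) : M₄) k s =
            x * ((g : M₄) r k * ((g⁻¹ : G₄) : M₄) k s) +
              if k = i then ((x ^ 3)⁻¹ - x) * (g : M₄) r k * ((g⁻¹ : G₄) : M₄) k s else 0 := fun k => by
          by_cases hk : k = i
          · simp [hd, hk]; ring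
          · simp [hd, hk]; ring
        simp only [hsplit, Finset.sum_add_distrib, ← Finset.mul_sum, h1, Finset.sum_ite_eq', Finset.mem_univ, if_true,
          mul_ite, mul_one, mul_zero]
      obtain ⟨s, -, hs⟩ := hrow _ (M.inv_mem hg) (fun h => hgm (by simpa using IsMono.inv (a := g⁻¹) h)) i i
      have hc : (x ^ 3)⁻¹ - x ≠ 0 := fun h => hx4 (by field_simp at h; linear_combination -h)
      have hym : ¬ IsMono (y : M₄) := by
        intro hm
        obtain ⟨r₁, r₂, h12, h1l, h1s, h2l, h2s⟩ : ∃ r₁ r₂ : Fin 4, r₁ ≠ r₂ ∧ r₁ ≠ l ∧ r₁ ≠ s ∧ r₂ ≠ l ∧ r₂ ≠ s :=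
          exists_two_other l s
        refine h12 (hm s r₁ r₂ ?_ ?_) <;>
          simp only [hy', h1s, h2s, if_false, zero_add] <;>
          exact mul_ne_zero (mul_ne_zero hc (hsec _ (by assumption))) hs
      obtain ⟨c, hcl, hc'⟩ := hrow y hyM hym l l
      exact hc' (by rw [hy', if_neg (Ne.symm hcl), hli]; ring)
  have hgim : ¬ IsMono ((g⁻¹ : G₄) : M₄) := fun h => hgm (by simpa using IsMono.inv (a := g⁻¹) h)
  set q : Fin 4 → F := fun k => (g : M₄) 0 k * ((g⁻¹ : G₄) : M₄) k 1 with hqd
  have hq0 : ∀ k, q k ≠ 0 := fun k => mul_ne_zero (hfull g hg hgm 0 k) (hfull _ (M.inv_mem hg) hgim k 1)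
  obtain ⟨u, hu, hsum, ⟨κ, hκ, hprod⟩, hl1, hl2⟩ := exists_four_sum hq
    (K := q 0 * q 1 * q 2 * q 3) (mul_ne_zero (mul_ne_zero (mul_ne_zero (hq0 0) (hq0 1)) (hq0 2)) (hq0 3))
  have hmono : ∀ v : Fin 4 → F, (hv : ∀ k, v k ≠ 0) → v 0 + v 1 + v 2 + v 3 = 0 →
      v 0 * v 1 * v 2 * v 3 = q 0 * q 1 * q 2 * q 3 * κ ^ 4 →
      ∃ d : Fin 4 → Fˣ, (∀ k, (d k : F) = v k / (q k * κ)) ∧ IsMono ((g * monGL 1 d * g⁻¹ : G₄) : M₄) ∧
        g * monGL 1 d * g⁻¹ ∈ M := by
    intro v hv hvs hvp
    refine ⟨fun k => Units.mk0 (v k / (q k * κ)) (div_ne_zero (hv k) (mul_ne_zero (hq0 k) hκ)), fun k => rfl, ?_⟩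
    set d : Fin 4 → Fˣ := fun k => Units.mk0 (v k / (q k * κ)) (div_ne_zero (hv k) (mul_ne_zero (hq0 k) hκ))
    have hdp : ∏ k, (d k : F) = 1 := by
      rw [Fin.prod_univ_four]
      simp only [d, Units.val_mk0]
      have := hq0 0; have := hq0 1; have := hq0 2; have := hq0 3
      field_simp
      linear_combination hvp
    have hmem : g * monGL 1 d * g⁻¹ ∈ M := M.mul_mem (M.mul_mem hg (hdiag d hdp)) (M.inv_mem hg)
    refine ⟨?_, hmem⟩
    by_contra hm
    refine hfull _ hmem hm 0 1 ?_
    have e : ∀ k, (g : M₄) 0 k * (d k : F) * ((g⁻¹ : G₄) : M₄) k 1 = v k / κ := fun k => by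
      have h : q k * (v k / (q k * κ)) = v k / κ := by have := hq0 k; field_simp
      rw [← h]; simp only [d, Units.val_mk0, hqd]; ring
    rw [conj_diag_apply, Fin.sum_univ_four, e, e, e, e, ← add_div, ← add_div, ← add_div, hvs, zero_div]
  obtain ⟨d, hd, hdm, hdM⟩ := hmono u hu hsum hprod
  obtain ⟨d', hd', hd'm, hd'M⟩ := hmono ![u 1, u 0, u 2, u 3] (fun k => by fin_cases k <;> simp [hu])
    (by simp; linear_combination hsum) (by simp; linear_combination hprod)
  set E : Fin 4 → Fˣ := fun k => d' k * (d k)⁻¹ with hE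
  have hE0 : (E 0 : F) = u 1 / u 0 := by
    have := hq0 0; have := hu 0
    simp [hE, hd, hd']; field_simp
  have hE2 : (E 2 : F) = 1 := by
    have := hq0 2; have := hu 2
    simp [hE, hd, hd']; field_simp
  have hE1 : (E 1 : F) = (u 1 / u 0)⁻¹ := by
    have := hq0 1; have := hu 1; have := hu 0
    simp [hE, hd, hd']; field_simp
  have hE3 : (E 3 : F) = 1 := by
    have := hq0 3; have := hu 3
    simp [hE, hd, hd']; field_simp
  set δ := g * monGL 1 E * g⁻¹ with hδ
  have hEd : monGL 1 E = monGL 1 d' * (monGL 1 d)⁻¹ := by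
    refine Units.ext ?_
    rw [Units.val_mul, monGL_inv_coe, monGL_coe, monGL_coe, show (1 : Equiv.Perm (Fin 4)).symm = 1 from rfl,
      one_monMat_apply, one_monMat_apply, one_monMat_apply, Matrix.diagonal_mul_diagonal]
    exact congrArg _ (funext fun k => by simp [hE])
  have hδm : IsMono (δ : M₄) := by
    rw [hδ, hEd, show g * (monGL 1 d' * (monGL 1 d)⁻¹) * g⁻¹ = (g * monGL 1 d' * g⁻¹) * (g * monGL 1 d * g⁻¹)⁻¹ by group]
    exact IsMono.mul hd'm (IsMono.inv hdm)
  obtain ⟨π, e, hπe⟩ := exists_monGL_of_isMono hδm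
  have hδg : ∀ r c, (e r : F) * (g : M₄) r c = (g : M₄) (π r) c * (E c : F) := by
    intro r c
    have h : δ * g = g * monGL 1 E := by rw [hδ]; group
    have h' : ((δ * g : G₄) : M₄) (π r) c = ((g * monGL 1 E : G₄) : M₄) (π r) c := by rw [h]
    rw [hπe, Units.val_mul, Units.val_mul, monGL_coe, monGL_coe, one_monMat_apply, Matrix.mul_diagonal,
      Matrix.mul_apply, Finset.sum_eq_single r (fun b _ hb => by simp [monMat, Ne.symm hb]) (by simp)] at h'
    simpa [monMat] using h'
  set lam := u 1 / u 0 with hlam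
  have hlam0 : lam ≠ 0 := div_ne_zero (hu 1) (hu 0)
  have hg0 := hfull g hg hgm
  rcases perm_four π with rfl | hπ | hπ | hπ
  · have h1 := mul_left_cancel₀ (hg0 0 0) (show (g : M₄) 0 0 * (e 0 : F) = (g : M₄) 0 0 * (E 0 : F) by
      have h := hδg 0 0
      rw [Equiv.Perm.one_apply] at h
      linear_combination h)
    have h2 := mul_left_cancel₀ (hg0 0 2) (show (g : M₄) 0 2 * (e 0 : F) = (g : M₄) 0 2 * (E 2 : F) by
      have h := hδg 0 2
      rw [Equiv.Perm.one_apply] at h
      linear_combination h)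
    exact hl1 (by rw [← hE0, ← h1, h2, hE2, one_pow])
  · have key : ∀ c, (e (π 0) : F) * e 0 = (E c : F) * E c := fun c => by
      refine mul_left_cancel₀ (hg0 0 c) ?_
      have h1 := hδg 0 c
      have h2 := hδg (π 0) c
      rw [show π (π 0) = 0 from by rw [← Equiv.Perm.mul_apply, hπ]; rfl] at h2
      linear_combination (e (π 0) : F) * h1 + (E c : F) * h2
    refine hl1 ?_
    have := (key 0).symm.trans (key 2)
    rw [hE0, hE2] at this
    linear_combination this
  · have key : ∀ c, (e (π (π 0)) : F) * e (π 0) * e 0 = (E c : F) * E c * E c := fun c => by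
      refine mul_left_cancel₀ (hg0 0 c) ?_
      have h1 := hδg 0 c
      have h2 := hδg (π 0) c
      have h3 := hδg (π (π 0)) c
      rw [show π (π (π 0)) = 0 from by rw [← Equiv.Perm.mul_apply, ← Equiv.Perm.mul_apply, hπ]; rfl] at h3
      linear_combination (e (π (π 0)) : F) * (e (π 0) : F) * h1 + (E c : F) * (e (π (π 0)) : F) * h2 +
        (E c : F) * (E c : F) * h3
    have := (key 0).symm.trans (key 2)
    rw [hE0, hE2] at this
    have h : (lam - 1) * (lam ^ 2 + lam + 1) = 0 := by linear_combination this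
    rcases mul_eq_zero.mp h with h | h
    · exact hl1 (by rw [sub_eq_zero.mp h, one_pow])
    · exact hl2 h
  · have htr : (δ : M₄).trace = (monGL 1 E : M₄).trace := by
      rw [hδ, Units.val_mul, Units.val_mul, Matrix.trace_mul_cycle, ← Units.val_mul, inv_mul_cancel, Units.val_one,
        one_mul]
    rw [hπe, monGL_coe, monGL_coe, one_monMat_apply, Matrix.trace_diagonal, Fin.sum_univ_four, hE0, hE1, hE2, hE3,
      Matrix.trace, Finset.sum_eq_zero (fun b _ => by simp [monMat, Ne.symm (hπ b)])] at htr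
    field_simp at htr
    have : (lam + 1) ^ 2 = 0 := by linear_combination -htr
    have h : lam + 1 = 0 := eq_zero_of_pow_eq_zero this
    exact hl1 (by linear_combination (lam - 1) * h)

/-- The coordinate version. -/
theorem sl_le_of_not_blockLike_mono {t : ℕ} (e : Fin 4 ≃ Fin t × Fin 1) (hq : 7 ≤ Fintype.card F)
    (hM : ContainsBlock (fun i => (e i).1) M) {g : G₄} (hg : g ∈ M)
    (hgB : ¬ BlockLike (fun i => (e i).1) (g : M₄)) : Cfsg.Geo.specialLinear (Fin 4) F ≤ M := by
  classical
  have hinj : Function.Injective fun i => (e i).1 := fun a b hab =>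
    e.injective (Prod.ext hab (Subsingleton.elim _ _))
  have hpair : ∀ i, ((e i).1, (0 : Fin 1)) = e i := fun i => Prod.ext rfl (Subsingleton.elim _ _)
  have hMon : ContainsMon M := fun π d hd => mon_mem hM π (fun x => (e (π (e.symm (x, 0)))).1)
    (fun i => by rw [hpair, e.symm_apply_apply]) d hd
  have hgm : ¬ IsMono (g : M₄) := by
    intro hmono
    obtain ⟨π, d, hgd⟩ := exists_monGL_of_isMono hmono
    refine hgB ⟨fun x => (e (π (e.symm (x, 0)))).1, fun k i hk => ?_⟩
    rw [hgd] at hk
    simp [monMat] at hk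
    dsimp only
    rw [hk, hpair, e.symm_apply_apply]
  obtain ⟨i, j, hij, c, hc, h⟩ := root_of_nonmonomial_four hq hMon hg hgm
  exact sl_le_of_roots (roots_of_cross e (by simp) hM (fun he => hij (hinj he)) hc h)

/-- The stabiliser of a decomposition is maximal in `SL`. -/
theorem monomial_maximal_four {t : ℕ} (D : Fin t → Submodule F (Fin 4 → F))
    (hD : Cfsg.Geo.IsMDecomposition 1 D) (hq : 7 ≤ Fintype.card F) :
    Cfsg.Geo.IsMaximalIn (Cfsg.Geo.specialLinear (Fin 4) F)
      (Cfsg.Geo.decompositionStabilizer D ⊓ Cfsg.Geo.specialLinear (Fin 4) F) := by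
  classical
  refine Cfsg.Agent.H98.isMaximalIn_of inf_le_right ?_ fun M hHM hMS g hg hgH => ?_
  · -- a transvection outside
    let a : Fin t := ⟨0, by have := hD.two_le; omega⟩
    let b : Fin t := ⟨1, by have := hD.two_le; omega⟩
    have hab : a ≠ b := by simp [a, b]
    have hne : ∀ c, D c ≠ ⊥ := fun c h => by
      have := hD.finrank_eq c
      rw [h, finrank_bot] at this
      exact hD.pos.ne this
    obtain ⟨w, hw, hw0⟩ := Submodule.exists_mem_ne_zero_of_ne_bot (hne a)
    obtain ⟨u, hu, hu0⟩ := Submodule.exists_mem_ne_zero_of_ne_bot (hne b)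
    have hnot : w ∉ Submodule.span F {u} := by
      intro h
      have hle : Submodule.span F {u} ≤ D b := (Submodule.span_singleton_le_iff_mem _ _).mpr hu
      exact hw0 (Submodule.disjoint_def.mp (hD.indep.pairwiseDisjoint hab) w hw (hle h))
    obtain ⟨φ, hφ, hk⟩ := Cfsg.Agent.H98.exists_functional hnot
    have hφu : φ u = 0 := LinearMap.mem_ker.mp (hk (Submodule.mem_span_singleton_self u))
    refine ⟨Cfsg.Agent.H98.transGL φ u hφu, Cfsg.Agent.H98.transGL_mem_sl φ u hφu, fun h =>
      Cfsg.Agent.H98.not_stab_of_spread hD hw hab ?_ ?_ h.1⟩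
    · rw [Cfsg.Agent.H98.transGL_mulVec, hφ, one_smul, map_add, Cfsg.Agent.H98.comp_same hD hw,
        Cfsg.Agent.H98.comp_other hD hab.symm hu, add_zero]
      exact hw0
    · rw [Cfsg.Agent.H98.transGL_mulVec, hφ, one_smul, map_add, Cfsg.Agent.H98.comp_other hD hab hw,
        Cfsg.Agent.H98.comp_same hD hu, zero_add]
      exact hu0
  obtain ⟨e, P, hP⟩ := exists_adapted hD
  have hdet : ∀ x : GL (Fin 4) F, ((P * x * P⁻¹ : GL (Fin 4) F) : Matrix (Fin 4) (Fin 4) F).det =
      (x : Matrix (Fin 4) (Fin 4) F).det := by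
    intro x
    rw [Units.val_mul, Units.val_mul, det_mul, det_mul, mul_right_comm, ← det_mul, ← Units.val_mul,
      mul_inv_cancel, Units.val_one, det_one, one_mul]
  let M' : Subgroup (GL (Fin 4) F) := M.comap (MulAut.conj P).toMonoidHom
  have hmem : ∀ x, x ∈ M' ↔ P * x * P⁻¹ ∈ M := fun x => Iff.rfl
  have hSL : ∀ x : GL (Fin 4) F, x ∈ Cfsg.Geo.specialLinear (Fin 4) F ↔
      (x : Matrix (Fin 4) (Fin 4) F).det = 1 := by
    intro x
    rw [Cfsg.Geo.specialLinear, MonoidHom.mem_ker, ← Units.val_inj]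
    rfl
  have hM' : ContainsBlock (fun i => (e i).1) M' := fun x hx hxB =>
    hHM ⟨conj_mem_stab_iff hD hP hxB, (hSL _).mpr (by
      change ((P * x * P⁻¹ : GL (Fin 4) F) : Matrix (Fin 4) (Fin 4) F).det = 1
      rw [hdet]; exact hx)⟩
  have hg' : P⁻¹ * g * P ∈ M' := by
    rw [hmem, show P * (P⁻¹ * g * P) * P⁻¹ = g by group]; exact hg
  have hgB : ¬ BlockLike (fun i => (e i).1) ((P⁻¹ * g * P : GL (Fin 4) F) : Matrix (Fin 4) (Fin 4) F) := by
    intro h
    have := conj_mem_stab_iff hD hP h
    rw [show P * (P⁻¹ * g * P) * P⁻¹ = g by group] at this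
    exact hgH ⟨this, hMS hg⟩
  have hle := sl_le_of_not_blockLike_mono e hq hM' hg' hgB
  intro x hx
  have hdx : (P⁻¹ * x * P) ∈ Cfsg.Geo.specialLinear (Fin 4) F := by
    rw [hSL, ← hdet, show P * (P⁻¹ * x * P) * P⁻¹ = x by group]; exact (hSL x).mp hx
  have := (hmem _).mp (hle hdx)
  rwa [show P * (P⁻¹ * x * P) * P⁻¹ = x by group] at this

end Cfsg.Agent.H99.SLFour
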