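import Cfsg.Agent.H50.LowDim.Orth

set_option autoImplicit false
set_option linter.unusedSectionVars false

/-!
The similitude group of a quadratic form in odd characteristic is maximal in the special linear group in
dimension four.
-/

namespace Cfsg.Agent.H99.SLFour.Orth

open Cfsg.Agent.H98 Cfsg.Agent.H98.Orth
open scoped Matrix

variable {ι : Type} [Fintype ι] [DecidableEq ι] {F : Type*} [Field F] {q : QuadraticForm F (ι → F)}
variable {M : Subgroup (GL ι F)}

local notation "Mat" => Matrix ι ι F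

section Geometry

variable [Finite F] (hq : Good q) (hn : Fintype.card ι = 4)
include hq hn

theorem finrank_orth (U : Submodule F (ι → F)) :
    Module.finrank F U + Module.finrank F (LinearMap.BilinForm.orthogonal q.polarBilin U) = 4 := by
  have h := LinearMap.BilinForm.finrank_orthogonal hq.nondeg U
  have h2 := Submodule.finrank_le U
  rw [Module.finrank_pi, hn] at h h2
  omega

/-- A small subspace has an anisotropic vector orthogonal to it. -/
theorem aniso_perp_one (x : ι → F) : ∃ y, q y ≠ 0 ∧ q.polarBilin y x = 0 := by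
  by_contra hc
  push Not at hc
  set U := Submodule.span F {x}
  have h1 : Module.finrank F U ≤ 1 := by
    have := finrank_span_finset_le_card (R := F) ({x} : Finset (ι → F))
    rwa [Finset.coe_singleton, Finset.card_singleton] at this
  have h2 := finrank_orth hq hn U
  have h0 : ∀ y ∈ LinearMap.BilinForm.orthogonal q.polarBilin U, q y = 0 := fun y hy => by
    by_contra hne
    exact hc y hne (by rw [b_comm]; exact hy x (Submodule.mem_span_singleton_self x))
  have h3 := finrank_orth hq hn (LinearMap.BilinForm.orthogonal q.polarBilin U)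
  have h4 := Submodule.finrank_mono (show LinearMap.BilinForm.orthogonal q.polarBilin U ≤
      LinearMap.BilinForm.orthogonal q.polarBilin (LinearMap.BilinForm.orthogonal q.polarBilin U) from
    fun y hy z hz => by
      change q.polarBilin z y = 0
      have := q_add (q := q) z y
      rw [h0 _ (Submodule.add_mem _ hz hy), h0 z hz, h0 y hy, zero_add, zero_add] at this
      exact this.symm)
  omega

/-- A non-degenerate subspace of small dimension has an anisotropic vector orthogonal to it. -/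
theorem aniso_perp {U : Submodule F (ι → F)} (hdim : Module.finrank F U < 4)
    (hU : ∀ u ∈ U, (∀ u' ∈ U, q.polarBilin u u' = 0) → u = 0) :
    ∃ r, q r ≠ 0 ∧ ∀ u ∈ U, q.polarBilin r u = 0 := by
  by_contra hc
  push Not at hc
  set U' := LinearMap.BilinForm.orthogonal q.polarBilin U with hU'
  have h0 : ∀ y ∈ U', q y = 0 := fun y hy => by
    by_contra hne
    obtain ⟨u, hu, hu'⟩ := hc y hne
    exact hu' (by rw [b_comm]; exact hy u hu)
  have hinf : U ⊓ U' = ⊥ := (Submodule.eq_bot_iff _).mpr fun u hu =>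
    hU u hu.1 fun u' hu' => by rw [b_comm]; exact hu.2 u' hu'
  have h1 := finrank_orth hq hn U
  rw [← hU'] at h1
  have htop : U ⊔ U' = ⊤ := Submodule.eq_top_of_finrank_eq (by
    have := Submodule.finrank_sup_add_finrank_inf_eq U U'
    rw [hinf, finrank_bot] at this
    rw [Module.finrank_pi, hn]; omega)
  have hbot : U' = ⊥ := (Submodule.eq_bot_iff _).mpr fun y hy => hq.eq_zero fun z => by
    obtain ⟨u, hu, w, hw, rfl⟩ := Submodule.mem_sup.mp (show z ∈ U ⊔ U' from htop ▸ Submodule.mem_top)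
    have h := q_add (q := q) y w
    rw [h0 _ (U'.add_mem hy hw), h0 y hy, h0 w hw, zero_add, zero_add] at h
    rw [map_add, ← h, add_zero, b_comm]
    exact hy u hu
  rw [hbot, finrank_bot] at h1
  omega

omit hn in
theorem aniso_not_mem {p e : ι → F} (hp : q p ≠ 0 ∨ p = 0) (he : q e = 0) (he0 : e ≠ 0) :
    e ∉ Submodule.span F {p} := by
  intro h
  obtain ⟨k, rfl⟩ := Submodule.mem_span_singleton.mp h
  rcases hp with hp | hp
  · rw [q_smul, mul_eq_zero, mul_self_eq_zero] at he
    exact he0 (by rw [he.resolve_right hp, zero_smul])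
  · exact he0 (by rw [hp, smul_zero])

/-- A hyperbolic pair orthogonal to a vector. -/
theorem pair_one {p : ι → F} (hp : q p ≠ 0 ∨ p = 0) :
    ∃ e f, q e = 0 ∧ q f = 0 ∧ q.polarBilin e f = 1 ∧ q.polarBilin e p = 0 ∧ q.polarBilin f p = 0 ∧ e ≠ 0 := by
  obtain ⟨e, he, he0, hee⟩ := hq.exists_singular (U := LinearMap.ker (q.polarBilin p)) (by
    have h3 := LinearMap.finrank_range_add_finrank_ker (q.polarBilin p)
    have h4 := Submodule.finrank_le (LinearMap.range (q.polarBilin p))
    rw [Module.finrank_self] at h4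
    rw [Module.finrank_pi, hn] at h3
    omega)
  have hep : q.polarBilin e p = 0 := by rw [b_comm]; exact LinearMap.mem_ker.mp he
  obtain ⟨f, hf, hef, -, hfS⟩ := hq.partner_perp hee (aniso_not_mem hq hp hee he0) fun s hs => by
    obtain ⟨k, rfl⟩ := Submodule.mem_span_singleton.mp hs
    rw [map_smul, hep, smul_zero]
  exact ⟨e, f, hee, hf, hef, hep, hfS p (Submodule.mem_span_singleton_self p), he0⟩

/-- The singular vectors orthogonal to a vector span its orthogonal. -/
theorem span_one {p : ι → F} (hp : q p ≠ 0 ∨ p = 0) (S : Submodule F (ι → F))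
    (h : ∀ w, q w = 0 → q.polarBilin w p = 0 → w ∈ S) {x : ι → F} (hx : q.polarBilin x p = 0) : x ∈ S := by
  obtain ⟨e, f, hee, hff, hef, hep, hfp, -⟩ := pair_one hq hn hp
  set x' := x - q.polarBilin x f • e - q.polarBilin x e • f with hx'
  have c1 : q.polarBilin x' e = 0 := by
    rw [hx']; simp only [map_sub, map_smul, LinearMap.sub_apply, LinearMap.smul_apply, b_self, hee,
      b_comm f e, hef, smul_eq_mul]
    ring
  have c2 : q.polarBilin x' f = 0 := by
    rw [hx']; simp only [map_sub, map_smul, LinearMap.sub_apply, LinearMap.smul_apply, b_self, hff, hef, smul_eq_mul]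
    ring
  have c3 : q.polarBilin x' p = 0 := by
    rw [hx']; simp only [map_sub, map_smul, LinearMap.sub_apply, LinearMap.smul_apply, hx, hep, hfp, smul_eq_mul]
    ring
  have hsing : q (x' + e + (-q x') • f) = 0 := by
    rw [q_add, q_add, q_smul, hee, hff, c1, map_smul, LinearMap.map_add₂, c2, hef, smul_eq_mul]; ring
  have hw := h _ hsing
    (by rw [LinearMap.map_add₂, LinearMap.map_add₂, LinearMap.map_smul₂, c3, hep, hfp, smul_zero]; ring)
  have e0 : x = (x' + e + (-q x') • f) + (q.polarBilin x f - 1) • e + (q.polarBilin x e - (-q x')) • f := by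
    rw [hx']; module
  rw [e0]
  exact S.add_mem (S.add_mem hw (S.smul_mem _ (h e hee hep))) (S.smul_mem _ (h f hff hfp))

theorem exists_sing_not_perp {x : ι → F} (hx : x ≠ 0) : ∃ z, q z = 0 ∧ q.polarBilin z x ≠ 0 := by
  by_contra hc
  push Not at hc
  exact hx (hq.eq_zero fun y => by
    have := span_one hq hn (Or.inr rfl) (LinearMap.ker (q.polarBilin x))
      (fun w hw _ => by rw [LinearMap.mem_ker, b_comm]; exact hc w hw) (x := y) (by simp)
    exact LinearMap.mem_ker.mp this)

/-- A singular vector orthogonal to `p`, not orthogonal to `a`. -/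
theorem exists_sing_perp {p a : ι → F} (hp : q p ≠ 0) (ha : a ≠ 0) (hpa : q.polarBilin p a = 0) :
    ∃ e, q e = 0 ∧ q.polarBilin e p = 0 ∧ q.polarBilin e a ≠ 0 := by
  by_contra hc
  push Not at hc
  refine ha (hq.eq_zero fun y => ?_)
  have := span_one hq hn (Or.inl hp) (LinearMap.ker (q.polarBilin a))
    (fun w hw hwp => by rw [LinearMap.mem_ker, b_comm]; exact hc w hw hwp)
    (x := y - (q.polarBilin y p / (2 * q p)) • p)
    (by rw [LinearMap.map_sub₂, LinearMap.map_smul₂, b_self, smul_eq_mul,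
      div_mul_cancel₀ _ (mul_ne_zero hq.two hp), sub_self])
  rw [LinearMap.mem_ker, map_sub, map_smul, b_comm a p, hpa, smul_zero, sub_zero] at this
  exact this

/-- An anisotropic vector orthogonal to `p` and to a singular vector orthogonal to `p`. -/
theorem aniso_perp_line {p e : ι → F} (hp : q p ≠ 0) (he : q e = 0) (he0 : e ≠ 0) (hep : q.polarBilin e p = 0) :
    ∃ b, q b ≠ 0 ∧ q.polarBilin b p = 0 ∧ q.polarBilin b e = 0 := by
  classical
  obtain ⟨f, hf, hef, hfe, hfS⟩ := hq.partner_perp he (aniso_not_mem hq (Or.inl hp) he he0) fun s hs => by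
    obtain ⟨k, rfl⟩ := Submodule.mem_span_singleton.mp hs
    rw [map_smul, hep, smul_zero]
  have hfp := hfS p (Submodule.mem_span_singleton_self p)
  set U := Submodule.span F (({p, e, f} : Finset (ι → F)) : Set (ι → F)) with hU
  have h3 : Module.finrank F U ≤ 3 := le_trans (finrank_span_finset_le_card _) Finset.card_le_three
  obtain ⟨b, hb, hbU⟩ := aniso_perp hq hn (U := U) (by omega) fun u hu hu' => by
    have hm : ∀ z ∈ ({p, e, f} : Finset (ι → F)), z ∈ U := fun z hz => Submodule.subset_span hz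
    rw [hU, Finset.coe_insert, Finset.coe_insert, Finset.coe_singleton] at hu
    obtain ⟨i, j, k, rfl⟩ := Submodule.mem_span_triple.mp hu
    have k1 := hu' p (hm p (by simp))
    have k2 := hu' e (hm e (by simp))
    have k3 := hu' f (hm f (by simp))
    simp only [map_add, map_smul, LinearMap.add_apply, LinearMap.smul_apply, b_self, he, hf, hep, hfp, hef, hfe,
      b_comm p e, b_comm p f, smul_eq_mul, mul_zero, add_zero, zero_add, mul_one] at k1 k2 k3
    rw [(mul_eq_zero.mp k1).resolve_right (mul_ne_zero hq.two hp), k2, k3]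
    simp
  exact ⟨b, hb, hbU p (Submodule.subset_span (by simp)), hbU e (Submodule.subset_span (by simp))⟩

/-- A singular vector not orthogonal to two orthogonal singular vectors. -/
theorem sing_link {w v : ι → F} (hw : q w = 0) (hw0 : w ≠ 0) (hv : q v = 0) (hv0 : v ≠ 0)
    (hwv : q.polarBilin w v = 0) :
    ∃ u, q u = 0 ∧ q.polarBilin w u ≠ 0 ∧ q.polarBilin v u ≠ 0 := by
  obtain ⟨a', ha'⟩ : ∃ a', q a' = 0 ∧ q.polarBilin w a' = 1 := by
    obtain ⟨y, hy⟩ := hq.exists_one hw0
    exact ⟨y + (-q y) • w, by rw [q_add, q_smul, map_smul, b_comm y w, hy, hw, smul_eq_mul]; ring,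
      by rw [map_add, map_smul, b_self, hw, hy]; simp⟩
  obtain ⟨b', hb'⟩ : ∃ b', q b' = 0 ∧ q.polarBilin v b' = 1 := by
    obtain ⟨y, hy⟩ := hq.exists_one hv0
    exact ⟨y + (-q y) • v, by rw [q_add, q_smul, map_smul, b_comm y v, hy, hv, smul_eq_mul]; ring,
      by rw [map_add, map_smul, b_self, hv, hy]; simp⟩
  by_cases h1 : q.polarBilin v a' = 0
  swap
  · exact ⟨a', ha'.1, by rw [ha'.2]; exact one_ne_zero, h1⟩
  by_cases h2 : q.polarBilin w b' = 0
  swap
  · exact ⟨b', hb'.1, h2, by rw [hb'.2]; exact one_ne_zero⟩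
  refine ⟨a' + b' + (-q.polarBilin a' b') • w, ?_, ?_, ?_⟩
  · rw [q_add, q_add, q_smul, map_smul, LinearMap.map_add₂, b_comm a' w, b_comm b' w, ha'.1, hb'.1, ha'.2,
      h2, hw, smul_eq_mul]
    ring
  · rw [map_add, map_add, map_smul, ha'.2, h2, b_self, hw]; simp
  · rw [map_add, map_add, map_smul, h1, hb'.2, b_comm v w, hwv]; simp

end Geometry

section Generation

variable [Finite F] (hq : Good q) (hH : ∀ g, IsoS q g → g ∈ M)
include hq hH

theorem hasT_conj {g : GL ι F} (hg : IsoS q g) {p a : ι → F} (h : HasT q M p a) :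
    HasT q M ((g : Mat) *ᵥ p) ((g : Mat) *ᵥ a) := by
  obtain ⟨h1, m1⟩ := h
  have := M.mul_mem (M.mul_mem (hH g hg) m1) (M.inv_mem (hH g hg))
  rw [conj_transGL] at this
  refine hasT_congr this (fun x => ?_) (by rw [hg.polar, h1])
  rw [LinearMap.comp_apply, Matrix.mulVecLin_apply, ← hg.polar p, gl_mulVec_inv]

/-- A transvection with singular functional gives the symplectic type transvections of that vector. -/
theorem long_of_hasT {w a : ι → F} (hw : q w = 0) (hw0 : w ≠ 0) (ha0 : a ≠ 0) (h : HasT q M w a) (t : F) :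
    HasT q M w (t • w) := by
  have hwa : q.polarBilin w a = 0 := h.1
  have hww : q.polarBilin w w = 0 := by rw [b_self, hw, mul_zero]
  by_cases hmem : a ∈ Submodule.span F {w}
  · obtain ⟨c, rfl⟩ := Submodule.mem_span_singleton.mp hmem
    have hc : c ≠ 0 := fun hc => ha0 (by rw [hc, zero_smul])
    obtain ⟨y₀, hy₀⟩ := hq.exists_one hw0
    set y := y₀ + (-q y₀) • w with hy
    have hwy : q.polarBilin w y = 1 := by rw [hy, map_add, map_smul, hy₀, hww, smul_zero, add_zero]
    have hyy : q y = 0 := by rw [hy, q_add, q_smul, map_smul, b_comm y₀ w, hy₀, hw, smul_eq_mul]; ring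
    have hyw : q.polarBilin y w = 1 := by rw [b_comm]; exact hwy
    have hsq : ∀ l : F, HasT q M w ((c * (l * l)) • w) := fun l => by
      rcases eq_or_ne l 0 with rfl | hl
      · rw [mul_zero, mul_zero, zero_smul]; exact hasT_zero w
      obtain ⟨k, hk, hkv⟩ := hq.torus hw hyy hwy hl
      have hkw : (k : Mat) *ᵥ w = l • w := by rw [hkv, hyw, hww]; module
      have h2 := hasT_conj hq hH hk h
      rw [Matrix.mulVec_smul, hkw] at h2
      have h3 := hasT_scale hl h2
      rwa [smul_smul, smul_smul, show l * c * l = c * (l * l) by ring] at h3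
    have h2 := hq.two
    have := hasT_sub (hsq ((t / c - 1) / 2)) (hsq ((t / c + 1) / 2))
    rw [← sub_smul] at this
    convert this using 2
    field_simp
    ring
  · obtain ⟨y, hy1, hy2⟩ : ∃ y, q.polarBilin w y = 0 ∧ q.polarBilin y a = 1 := by
      obtain ⟨φ, h1, h2⟩ := exists_functional hmem
      obtain ⟨p, rfl⟩ := hq.exists_rep φ
      exact ⟨p, by rw [b_comm]; exact LinearMap.mem_ker.mp (h2 (Submodule.mem_span_singleton_self w)), h1⟩
    have hb : q.polarBilin w ((-t) • y) = 0 := by rw [map_smul, hy1, smul_zero]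
    have h2 := hasT_conj hq hH (eichGL_iso hw hb) h
    rw [eichGL_mulVec, eichGL_mulVec, hww, hwa, map_smul, LinearMap.smul_apply, LinearMap.smul_apply,
      b_comm y w, hy1, hy2] at h2
    simp only [smul_zero, mul_zero, zero_smul, sub_zero, add_zero, smul_eq_mul, mul_one] at h2
    have h3 := hasT_sub h h2
    rwa [sub_sub_cancel_left, neg_smul, neg_neg] at h3

variable (hn : Fintype.card ι = 4)
include hn

/-- Symplectic type transvections move between non-orthogonal singular vectors. -/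
theorem long_move {w v : ι → F} (hw : q w = 0) (hv : q v = 0) (hwv : q.polarBilin w v ≠ 0)
    (h : ∀ t : F, HasT q M w (t • w)) (t : F) : HasT q M v (t • v) := by
  classical
  set v' := (q.polarBilin w v)⁻¹ • v with hv'
  have hv'v' : q v' = 0 := by rw [hv', q_smul, hv, mul_zero]
  have hwv' : q.polarBilin w v' = 1 := by rw [hv', map_smul, smul_eq_mul, inv_mul_cancel₀ hwv]
  have hv'w : q.polarBilin v' w = 1 := by rw [b_comm]; exact hwv'
  have hww : q.polarBilin w w = 0 := by rw [b_self, hw, mul_zero]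
  have hvv : q.polarBilin v' v' = 0 := by rw [b_self, hv'v', mul_zero]
  obtain ⟨r, hr, hrU⟩ := aniso_perp hq hn (U := Submodule.span F ({w, v'} : Set (ι → F)))
    (by
      have h4 := finrank_span_finset_le_card (R := F) ({w, v'} : Finset (ι → F))
      rw [Finset.coe_insert, Finset.coe_singleton] at h4
      exact lt_of_le_of_lt (le_trans h4 Finset.card_le_two) (by norm_num))
    fun u hu hu' => by
      obtain ⟨i, j, rfl⟩ := Submodule.mem_span_pair.mp hu
      have k1 := hu' w (Submodule.subset_span (by simp))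
      have k2 := hu' v' (Submodule.subset_span (by simp))
      simp only [map_add, map_smul, LinearMap.add_apply, LinearMap.smul_apply, hww, hvv, hv'w, hwv', smul_eq_mul,
        mul_zero, mul_one, add_zero, zero_add] at k1 k2
      rw [k1, k2, zero_smul, zero_smul, add_zero]
  have hrw : q.polarBilin r w = 0 := hrU w (Submodule.subset_span (by simp))
  have hrv : q.polarBilin r v' = 0 := hrU v' (Submodule.subset_span (by simp))
  have hvr : q.polarBilin v' r = 0 := by rw [b_comm]; exact hrv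
  have hwr : q.polarBilin w r = 0 := by rw [b_comm]; exact hrw
  have hwr' : q.polarBilin w ((q r)⁻¹ • r) = 0 := by rw [map_smul, hwr, smul_zero]
  have h1 := eichGL_iso hv'v' hvr
  have h2 := eichGL_iso hw hwr'
  set g := eichGL hw hwr' * eichGL hv'v' hvr
  have hg : IsoS q g := ⟨fun x => by rw [Units.val_mul, ← Matrix.mulVec_mulVec, h2.1, h1.1],
    Subgroup.mul_mem _ h2.2 h1.2⟩
  have hgw : (g : Mat) *ᵥ w = (-q r) • v' := by
    simp only [g, Units.val_mul, ← Matrix.mulVec_mulVec, eichGL_mulVec, map_add, map_sub, map_smul, hv'w, hwv', hrw,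
      hwr, hrv, hww, q_smul, b_self r, smul_eq_mul, LinearMap.smul_apply]
    match_scalars <;> field_simp <;> ring
  have hd : -q r * (q.polarBilin w v)⁻¹ ≠ 0 := mul_ne_zero (neg_ne_zero.mpr hr) (inv_ne_zero hwv)
  have h3 := hasT_conj hq hH hg (h (t / ((-q r * (q.polarBilin w v)⁻¹) * (-q r * (q.polarBilin w v)⁻¹))))
  rw [Matrix.mulVec_smul, hgw, hv', smul_smul] at h3
  have h4 := hasT_scale hd h3
  rw [smul_smul, smul_smul] at h4
  convert h4 using 2
  field_simp

/-- A transvection with singular functional generates the special linear group. -/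
theorem sl_le_of_hasT {w a : ι → F} (hw : q w = 0) (hw0 : w ≠ 0) (ha0 : a ≠ 0) (h : HasT q M w a) :
    Cfsg.Geo.specialLinear ι F ≤ M := by
  classical
  have hW := long_of_hasT hq hH hw hw0 ha0 h
  have hall : ∀ v, q v = 0 → v ≠ 0 → ∀ t : F, HasT q M v (t • v) := by
    intro v hv hv0
    by_cases hwv : q.polarBilin w v = 0
    swap
    · exact long_move hq hH hn hw hv hwv hW
    obtain ⟨u, huu, e1, e2⟩ := sing_link hq hn hw hw0 hv hv0 hwv
    exact long_move hq hH hn huu hv (by rw [b_comm]; exact e2) (long_move hq hH hn hw huu e1 hW)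
  -- anisotropic functionals
  have haniso : ∀ p, q p ≠ 0 → ∀ x, q.polarBilin p x = 0 → HasT q M p x := by
    intro p hp x hx
    have hp0 : p ≠ 0 := fun h0 => hp (by rw [h0, QuadraticMap.map_zero])
    obtain ⟨z, hz, hzp⟩ := exists_sing_not_perp hq hn hp0
    set ww := (q.polarBilin z p)⁻¹ • z with hww
    have hww0 : q ww = 0 := by rw [hww, q_smul, hz, mul_zero]
    have hwwp : q.polarBilin ww p = 1 := by rw [hww, map_smul, LinearMap.smul_apply, smul_eq_mul, inv_mul_cancel₀ hzp]
    have hpww : q.polarBilin p ww = 1 := by rw [b_comm]; exact hwwp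
    clear_value ww
    set c := -q p with hc
    have hc0 : c ≠ 0 := neg_ne_zero.mpr hp
    set v := p + c • ww with hv
    have hwwww : q.polarBilin ww ww = 0 := by rw [b_self, hww0, mul_zero]
    have hvv : q v = 0 := by rw [hv, q_add, q_smul, map_smul, hpww, hww0, hc, smul_eq_mul]; ring
    have hvw : q.polarBilin v ww = 1 := by rw [hv, LinearMap.map_add₂, LinearMap.map_smul₂, hpww, hwwww, smul_zero, add_zero]
    have hv0 : v ≠ 0 := fun h0 => by rw [h0] at hvw; simp at hvw
    have hw'0 : ww ≠ 0 := fun h0 => by rw [h0] at hvw; simp at hvw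
    have hwv : q.polarBilin ww v = 1 := by rw [b_comm]; exact hvw
    set a₀ := v + c • ww with ha₀
    have hbase : ∀ s : F, HasT q M p (s • a₀) := fun s => by
      obtain ⟨k1, m1⟩ := hall ww hww0 hw'0 c
      obtain ⟨k2, m2⟩ := hall v hvv hv0 s
      have h3 := M.mul_mem (M.mul_mem m1 m2) (M.inv_mem m1)
      rw [conj_transGL] at h3
      refine hasT_congr h3 (fun y => ?_) ?_
      · have e : ((transGL (q.polarBilin ww) (c • ww) k1)⁻¹ : GL ι F) =
            transGL (-q.polarBilin ww) (c • ww) (by rw [LinearMap.neg_apply, k1, neg_zero]) := transGL_inv _ _ k1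
        rw [e]
        simp only [LinearMap.comp_apply, Matrix.mulVecLin_apply, transGL_mulVec, LinearMap.neg_apply, map_add, map_smul,
          hvw, hwv, smul_eq_mul, ha₀, hv, LinearMap.add_apply, LinearMap.smul_apply, hpww, hwwp, hwwww]
        module
      · simp only [ha₀, hv, map_smul, map_add, hpww, b_self, hc, smul_eq_mul]
        ring
    have hpa : q.polarBilin p a₀ = 0 := by simpa [-QuadraticMap.polarBilin_apply_apply] using (hbase 1).1
    have ha₀a₀ : q.polarBilin a₀ a₀ = 2 * c := by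
      rw [b_self, ha₀, q_add, q_smul, map_smul, hvw, hvv, hww0, smul_eq_mul]; ring
    let S : Submodule F (ι → F) :=
      { carrier := {y | ∀ s : F, HasT q M p (s • y)}
        add_mem' := fun {y y'} hy hy' s => by rw [smul_add]; exact hasT_add (hy s) (hy' s)
        zero_mem' := fun s => by rw [smul_zero]; exact hasT_zero p
        smul_mem' := fun k y hy s => by rw [smul_smul]; exact hy _ }
    have hinv : ∀ {e b : ι → F} (he : q e = 0) (hb : q.polarBilin e b = 0), q.polarBilin e p = 0 →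
        q.polarBilin b p = 0 →
        a₀ + q.polarBilin e a₀ • b - q.polarBilin b a₀ • e - (q b * q.polarBilin e a₀) • e ∈ S := by
      intro e b he hb hep hbp s
      have h1 := hasT_conj hq hH (eichGL_iso he hb) (hbase s)
      rw [Matrix.mulVec_smul, eichGL_mulVec, eichGL_mulVec, hep, hbp] at h1
      simpa using h1
    have ha₀0 : a₀ ≠ 0 := fun h0 => mul_ne_zero hq.two hc0 (by rw [← ha₀a₀, h0, map_zero])
    have ha₀S : a₀ ∈ S := hbase
    obtain ⟨e, he, hep, hea⟩ := exists_sing_perp hq hn hp ha₀0 hpa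
    have he0 : e ≠ 0 := fun h0 => hea (by rw [h0]; simp)
    obtain ⟨b₀, hb₀, hb₀p, hb₀e⟩ := aniso_perp_line hq hn hp he he0 hep
    have heS : e ∈ S := by
      have h1 := hinv he (show q.polarBilin e b₀ = 0 by rw [b_comm]; exact hb₀e) hep hb₀p
      have h2 := hinv he (b := -b₀) (by rw [map_neg, b_comm, hb₀e, neg_zero]) hep
        (by rw [LinearMap.map_neg₂, hb₀p, neg_zero])
      have h3 := S.sub_mem (S.sub_mem (S.add_mem ha₀S ha₀S) h1) h2
      have e3 : (2 * (q b₀ * q.polarBilin e a₀)) • e ∈ S := by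
        convert h3 using 1
        rw [QuadraticMap.map_neg, LinearMap.map_neg₂]
        module
      have := S.smul_mem (2 * (q b₀ * q.polarBilin e a₀))⁻¹ e3
      rwa [smul_smul, inv_mul_cancel₀ (mul_ne_zero hq.two (mul_ne_zero hb₀ hea)), one_smul] at this
    have hperp : ∀ b, q.polarBilin b p = 0 → q.polarBilin e b = 0 → b ∈ S := by
      intro b hbp heb
      have h1 := hinv he heb hep hbp
      have h2 : q.polarBilin e a₀ • b ∈ S := by
        have h3 := S.add_mem (S.sub_mem h1 ha₀S) (S.smul_mem (q.polarBilin b a₀ + q b * q.polarBilin e a₀) heS)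
        convert h3 using 1
        module
      have := S.smul_mem (q.polarBilin e a₀)⁻¹ h2
      rwa [smul_smul, inv_mul_cancel₀ hea, one_smul] at this
    set l := q.polarBilin e x / q.polarBilin e a₀ with hl
    have hx' : x - l • a₀ ∈ S := hperp _
      (by rw [LinearMap.map_sub₂, LinearMap.map_smul₂, b_comm x p, hx, b_comm a₀ p, hpa, smul_zero, sub_zero])
      (by rw [map_sub, map_smul, smul_eq_mul, hl, div_mul_cancel₀ _ hea, sub_self])
    have := hasT_add (hx' 1) (hbase l)
    rwa [one_smul, sub_add_cancel] at this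
  have hgen : ∀ p x, q.polarBilin p x = 0 → HasT q M p x := by
    intro p x hx
    by_cases hp : q p = 0
    swap
    · exact haniso p hp x hx
    -- an anisotropic vector orthogonal to `x`, off a quadric
    obtain ⟨y, hy, hyx⟩ := aniso_perp_one hq hn x
    obtain ⟨p₁, h1, h2, h3⟩ : ∃ p₁, q p₁ ≠ 0 ∧ q.polarBilin p₁ x = 0 ∧ q (p - p₁) ≠ 0 := by
      by_cases h : q (p - y) = 0
      · refine ⟨-y, by rw [QuadraticMap.map_neg]; exact hy, by rw [LinearMap.map_neg₂, hyx, neg_zero], fun h' => ?_⟩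
        rw [sub_eq_add_neg, q_add, QuadraticMap.map_neg, map_neg, hp] at h
        rw [sub_neg_eq_add, q_add, hp] at h'
        exact mul_ne_zero hq.two hy (by linear_combination h + h')
      · exact ⟨y, hy, hyx, h⟩
    have := hasT_left (haniso p₁ h1 x h2)
      (haniso (p - p₁) h3 x (by rw [map_sub, LinearMap.sub_apply, hx, h2, sub_zero]))
    rwa [add_sub_cancel] at this
  refine sl_le_of_transvections M fun φ x hφ => ?_
  obtain ⟨p, rfl⟩ := hq.exists_rep φ
  exact (hgen p x hφ).2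

/-- A transvection with any functional generates the special linear group. -/
theorem sl_le_of_hasT' {p a : ι → F} (hp0 : p ≠ 0) (ha0 : a ≠ 0) (h : HasT q M p a) :
    Cfsg.Geo.specialLinear ι F ≤ M := by
  by_cases hqp : q p = 0
  · exact sl_le_of_hasT hq hH hn hqp hp0 ha0 h
  have hpa : q.polarBilin p a = 0 := h.1
  obtain ⟨e, he, hep, hea⟩ := exists_sing_perp hq hn hqp ha0 hpa
  have he0 : e ≠ 0 := fun h0 => hea (by rw [h0]; simp)
  obtain ⟨b, hb, hbp, hbe⟩ := aniso_perp_line hq hn hqp he he0 hep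
  have hconj : ∀ {c : ι → F} (hec : q.polarBilin e c = 0), q.polarBilin c p = 0 →
      HasT q M p (a + q.polarBilin e a • c - q.polarBilin c a • e - (q c * q.polarBilin e a) • e) := by
    intro c hec hcp
    have h1 := hasT_conj hq hH (eichGL_iso he hec) h
    rw [eichGL_mulVec, eichGL_mulVec, hep, hcp] at h1
    simpa using h1
  have h1 := hconj (show q.polarBilin e b = 0 by rw [b_comm]; exact hbe) hbp
  have h2 := hconj (c := -b) (by rw [map_neg, b_comm, hbe, neg_zero]) (by rw [LinearMap.map_neg₂, hbp, neg_zero])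
  have h3 := hasT_sub (hasT_add h h) (hasT_add h1 h2)
  set k := -(2 * (q b * q.polarBilin e a)) with hk
  have hk0 : k ≠ 0 := neg_ne_zero.mpr (mul_ne_zero hq.two (mul_ne_zero hb hea))
  have hT : HasT q M p (k • e) := by
    convert h3 using 1
    rw [hk, QuadraticMap.map_neg, LinearMap.map_neg₂]
    module
  have h4 := hasT_conj hq hH (eichGL_iso he hep) hT
  have hee : q.polarBilin e e = 0 := by rw [b_self, he, mul_zero]
  have e1 : (eichGL he hep : Mat) *ᵥ (k • e) = k • e := by
    rw [Matrix.mulVec_smul, eichGL_mulVec, hee, b_comm p e, hep]; simp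
  have e2 : (eichGL he hep : Mat) *ᵥ p = p + (-(2 * q p)) • e := by
    rw [eichGL_mulVec, hep, b_self]; simp [sub_eq_add_neg]
  rw [e1, e2] at h4
  have h5 := hasT_left h4 (Cfsg.Agent.H50.LowDim.hasT_negl hT)
  rw [add_right_comm, add_neg_cancel, zero_add] at h5
  exact sl_le_of_hasT hq hH hn (by rw [q_smul, he, mul_zero])
    (smul_ne_zero (neg_ne_zero.mpr (mul_ne_zero hq.two hqp)) he0) (smul_ne_zero hk0 he0) h5

end Generation

section Frame

/-- The units of matrices over `ZMod 3`, read in a frame of four vectors. -/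
noncomputable def frameHom (b : Module.Basis (Fin 4) F (ι → F)) (f : ZMod 3 →+* F) :
    GL (Fin 4) (ZMod 3) →* GL ι F :=
  Units.map ((((LinearMap.toMatrixAlgEquiv' (R := F) (n := ι)).toAlgHom.comp
    (Matrix.toLinAlgEquiv b).toAlgHom).toRingHom.comp f.mapMatrix).toMonoidHom)

theorem frameHom_mulVec (b : Module.Basis (Fin 4) F (ι → F)) (f : ZMod 3 →+* F) (A : GL (Fin 4) (ZMod 3))
    (x : ι → F) :
    (frameHom b f A : Mat) *ᵥ x = Matrix.toLinAlgEquiv b ((A : Matrix (Fin 4) (Fin 4) (ZMod 3)).map f) x :=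
  LinearMap.toMatrix'_mulVec (Matrix.toLinAlgEquiv b ((A : Matrix (Fin 4) (Fin 4) (ZMod 3)).map f)) x

theorem frameHom_basis (b : Module.Basis (Fin 4) F (ι → F)) (f : ZMod 3 →+* F) (A : GL (Fin 4) (ZMod 3))
    (j : Fin 4) :
    (frameHom b f A : Mat) *ᵥ b j = ∑ i, f ((A : Matrix (Fin 4) (Fin 4) (ZMod 3)) i j) • b i := by
  rw [frameHom_mulVec, Matrix.toLinAlgEquiv_self]
  simp only [Matrix.map_apply]

theorem frameHom_iso {b : Module.Basis (Fin 4) F (ι → F)} {f : ZMod 3 →+* F} (h2 : (2 : F) ≠ 0)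
    {D : Fin 4 → ZMod 3} {σ : F} (hb : ∀ i j, q.polarBilin (b i) (b j) = if i = j then 2 * σ * f (D i) else 0)
    {A : GL (Fin 4) (ZMod 3)}
    (hA : (A : Matrix (Fin 4) (Fin 4) (ZMod 3))ᵀ * Matrix.diagonal D * A = Matrix.diagonal D)
    (hd : (A : Matrix (Fin 4) (Fin 4) (ZMod 3)).det = 1) : IsoS q (frameHom b f A) := by
  classical
  set L := Matrix.toLinAlgEquiv b ((A : Matrix (Fin 4) (Fin 4) (ZMod 3)).map f) with hL
  refine ⟨fun x => ?_, ?_⟩
  · have hG : LinearMap.toMatrix₂ b b q.polarBilin = (2 * σ) • (Matrix.diagonal D).map f := by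
      ext i j
      rw [LinearMap.toMatrix₂_apply, hb, Matrix.smul_apply, Matrix.map_apply, smul_eq_mul, Matrix.diagonal_apply]
      split <;> simp
    have h : q.polarBilin.compl₁₂ L L = q.polarBilin := (LinearMap.toMatrix₂ b b).injective (by
      rw [LinearMap.toMatrix₂_compl₁₂ (b₁ := b) (b₂ := b), hG, hL]
      rw [show LinearMap.toMatrix b b (Matrix.toLinAlgEquiv b ((A : Matrix (Fin 4) (Fin 4) (ZMod 3)).map f)) =
        (A : Matrix (Fin 4) (Fin 4) (ZMod 3)).map f from LinearMap.toMatrix_toLin b b _, Matrix.mul_smul,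
        Matrix.smul_mul, ← Matrix.transpose_map]
      rw [← Matrix.map_mul, ← Matrix.map_mul, hA])
    have h1 := LinearMap.congr_fun (LinearMap.congr_fun h x) x
    rw [LinearMap.compl₁₂_apply, b_self, b_self] at h1
    rw [frameHom_mulVec, ← hL]
    exact mul_left_cancel₀ h2 h1
  · rw [Cfsg.Geo.specialLinear, MonoidHom.mem_ker, ← Units.val_inj]
    change (LinearMap.toMatrix' L).det = 1
    rw [LinearMap.det_toMatrix', hL]
    change LinearMap.det (Matrix.toLin b b ((A : Matrix (Fin 4) (Fin 4) (ZMod 3)).map f)) = 1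
    rw [LinearMap.det_toLin, ← RingHom.mapMatrix_apply, ← RingHom.map_det, hd, map_one]

end Frame

section WordData

/-- A matrix of the exceptional word. -/
def wordV : GL (Fin 4) (ZMod 3) :=
  ⟨!![1, 0, 0, 2; 0, 1, 0, 0; 0, 1, 1, 0; 0, 0, 0, 1], !![1, 0, 0, 1; 0, 1, 0, 0; 0, 2, 1, 0; 0, 0, 0, 1], by decide, by decide⟩

/-- A matrix of the exceptional word. -/
def wordS1 : GL (Fin 4) (ZMod 3) :=
  ⟨!![0, 1, 1, 2; 1, 2, 0, 1; 1, 0, 2, 1; 1, 2, 2, 2], !![0, 1, 1, 2; 1, 2, 0, 1; 1, 0, 2, 1; 1, 2, 2, 2], by decide, by decide⟩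

/-- A matrix of the exceptional word. -/
def wordO1 : GL (Fin 4) (ZMod 3) :=
  ⟨!![1, 2, 0, 1; 0, 1, 1, 2; 1, 0, 2, 1; 2, 1, 1, 1], !![1, 0, 1, 1; 2, 1, 0, 2; 0, 1, 2, 2; 2, 1, 2, 1], by decide, by decide⟩

/-- A matrix of the exceptional word. -/
def wordT1 : GL (Fin 4) (ZMod 3) :=
  ⟨!![0, 2, 2, 0; 1, 2, 1, 0; 0, 0, 1, 0; 1, 1, 1, 1], !![2, 1, 1, 0; 2, 0, 2, 0; 0, 0, 1, 0; 2, 2, 2, 1], by decide, by decide⟩

/-- A matrix of the exceptional word. -/
def wordS2 : GL (Fin 4) (ZMod 3) :=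
  ⟨!![0, 1, 0, 1; 0, 1, 2, 2; 1, 0, 0, 0; 0, 1, 1, 2], !![0, 0, 1, 0; 2, 1, 0, 1; 0, 1, 0, 2; 2, 2, 0, 2], by decide, by decide⟩

/-- A matrix of the exceptional word. -/
def wordO2 : GL (Fin 4) (ZMod 3) :=
  ⟨!![0, 2, 0, 1; 2, 0, 2, 0; 0, 2, 0, 2; 1, 0, 2, 0], !![0, 1, 0, 2; 1, 0, 1, 0; 0, 1, 0, 1; 2, 0, 1, 0], by decide, by decide⟩

/-- A matrix of the exceptional word. -/
def wordT2 : GL (Fin 4) (ZMod 3) :=
  ⟨!![1, 0, 0, 0; 0, 1, 0, 0; 2, 2, 0, 2; 1, 1, 1, 2], !![1, 0, 0, 0; 0, 1, 0, 0; 1, 1, 2, 1; 2, 2, 2, 0], by decide, by decide⟩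

theorem word_data1 :
    ((wordS1 : Matrix (Fin 4) (Fin 4) (ZMod 3))ᵀ * Matrix.diagonal ![1, 1, 1, 2] * (wordS1 : Matrix (Fin 4) (Fin 4) (ZMod 3)) = Matrix.diagonal ![1, 1, 1, 2]) ∧
    (wordS1 : Matrix (Fin 4) (Fin 4) (ZMod 3)).det = 1 ∧
    ((wordO1 : Matrix (Fin 4) (Fin 4) (ZMod 3))ᵀ * Matrix.diagonal ![1, 1, 1, 2] * (wordO1 : Matrix (Fin 4) (Fin 4) (ZMod 3)) = Matrix.diagonal ![1, 1, 1, 2]) ∧
    (wordO1 : Matrix (Fin 4) (Fin 4) (ZMod 3)).det = 1 ∧
    (![2, 1, 0, 1] : Fin 4 → ZMod 3) ≠ 0 ∧ (![1, 1, 1, 0] : Fin 4 → ZMod 3) ≠ 0 ∧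
    ∑ i, (![1, 1, 1, 0] : Fin 4 → ZMod 3) i * (![2, 1, 0, 1] : Fin 4 → ZMod 3) i = 0 ∧
    (wordT1 : Matrix (Fin 4) (Fin 4) (ZMod 3)) =
      1 + Matrix.of fun i j => (![2, 1, 0, 1] : Fin 4 → ZMod 3) i * (![1, 1, 1, 0] : Fin 4 → ZMod 3) j := by
  refine ⟨?_, ?_, ?_, ?_, ?_, ?_, ?_, ?_⟩ <;> decide

theorem word_eq1 : wordS1 * wordV * wordS1 * (wordV * wordV) = wordT1 * wordO1 :=
  Units.ext (by decide)

theorem word_data2 :
    ((wordS2 : Matrix (Fin 4) (Fin 4) (ZMod 3))ᵀ * Matrix.diagonal ![1, 2, 1, 2] * (wordS2 : Matrix (Fin 4) (Fin 4) (ZMod 3)) = Matrix.diagonal ![1, 2, 1, 2]) ∧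
    (wordS2 : Matrix (Fin 4) (Fin 4) (ZMod 3)).det = 1 ∧
    ((wordO2 : Matrix (Fin 4) (Fin 4) (ZMod 3))ᵀ * Matrix.diagonal ![1, 2, 1, 2] * (wordO2 : Matrix (Fin 4) (Fin 4) (ZMod 3)) = Matrix.diagonal ![1, 2, 1, 2]) ∧
    (wordO2 : Matrix (Fin 4) (Fin 4) (ZMod 3)).det = 1 ∧
    (![0, 0, 2, 1] : Fin 4 → ZMod 3) ≠ 0 ∧ (![1, 1, 1, 1] : Fin 4 → ZMod 3) ≠ 0 ∧
    ∑ i, (![1, 1, 1, 1] : Fin 4 → ZMod 3) i * (![0, 0, 2, 1] : Fin 4 → ZMod 3) i = 0 ∧
    (wordT2 : Matrix (Fin 4) (Fin 4) (ZMod 3)) =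
      1 + Matrix.of fun i j => (![0, 0, 2, 1] : Fin 4 → ZMod 3) i * (![1, 1, 1, 1] : Fin 4 → ZMod 3) j := by
  refine ⟨?_, ?_, ?_, ?_, ?_, ?_, ?_, ?_⟩ <;> decide

theorem word_eq2 : wordS2 * wordV * wordS2 * (wordV * wordV) = wordT2 * wordO2 :=
  Units.ext (by decide)

end WordData

section Similitude

variable [Finite F] (hq : Good q) (hn : Fintype.card ι = 4) (hH : ∀ g, IsoS q g → g ∈ M)
include hq hn hH

omit hH hn in
/-- The half turn in the plane of two orthogonal anisotropic vectors. -/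
theorem half_turn {h r : ι → F} (hh : q h ≠ 0) (hr : q r ≠ 0) (hhr : q.polarBilin h r = 0) :
    ∃ s, IsoS q s ∧ ∀ x, (s : Mat) *ᵥ x = x - (q.polarBilin h x / q h) • h - (q.polarBilin r x / q r) • r := by
  have hrh : q.polarBilin r h = 0 := by rw [b_comm]; exact hhr
  have h2 := hq.two
  have k1 : ((2 * q r)⁻¹ • q.polarBilin r) h = 0 := by rw [LinearMap.smul_apply, hrh, smul_zero]
  have k2 : (-(2 * q h)⁻¹ • q.polarBilin h) r = 0 := by rw [LinearMap.smul_apply, hhr, smul_zero]
  set w := transGL _ h k1 * transGL _ r k2 * transGL _ h k1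
  have hw : ∀ x, (↑(w * w) : Mat) *ᵥ x = x - (q.polarBilin h x / q h) • h - (q.polarBilin r x / q r) • r := by
    intro x
    simp only [w, Units.val_mul, ← Matrix.mulVec_mulVec, transGL_mulVec, LinearMap.smul_apply, map_add, map_smul,
      LinearMap.neg_apply, b_self, hhr, hrh, smul_eq_mul]
    match_scalars <;> field_simp <;> ring
  refine ⟨w * w, ⟨fun x => ?_, ?_⟩, hw⟩
  · rw [hw, sub_eq_add_neg, sub_eq_add_neg, ← neg_smul, ← neg_smul, q_add, q_add, q_smul, q_smul, map_smul, map_smul,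
      LinearMap.map_add₂, LinearMap.map_smul₂, hhr, b_comm x h, b_comm x r]
    simp only [smul_eq_mul, mul_zero, add_zero]
    field_simp
    ring
  · exact Subgroup.mul_mem _
      (Subgroup.mul_mem _ (Subgroup.mul_mem _ (transGL_mem_sl _ _ _) (transGL_mem_sl _ _ _)) (transGL_mem_sl _ _ _))
      (Subgroup.mul_mem _ (Subgroup.mul_mem _ (transGL_mem_sl _ _ _) (transGL_mem_sl _ _ _)) (transGL_mem_sl _ _ _))

omit hH hn in
theorem orth_indep {k : ℕ} {v : Fin k → ι → F} (hv : ∀ i, q (v i) ≠ 0)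
    (ho : ∀ i j, i ≠ j → q.polarBilin (v i) (v j) = 0) : LinearIndependent F v := by
  classical
  rw [Fintype.linearIndependent_iff]
  intro c hc j
  have h := congrArg (q.polarBilin (v j)) hc
  rw [map_zero, map_sum, Finset.sum_eq_single j (fun i _ hij => by rw [map_smul, ho j i (Ne.symm hij), smul_zero])
    (by simp), map_smul, b_self, smul_eq_mul] at h
  exact (mul_eq_zero.mp h).resolve_right (mul_ne_zero hq.two (hv j))

omit hH in
theorem aniso_perp_orth {k : ℕ} (hk : k < 4) {v : Fin k → ι → F} (hv : ∀ i, q (v i) ≠ 0)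
    (ho : ∀ i j, i ≠ j → q.polarBilin (v i) (v j) = 0) : ∃ r, q r ≠ 0 ∧ ∀ i, q.polarBilin r (v i) = 0 := by
  classical
  obtain ⟨r, hr, hrU⟩ := aniso_perp hq hn (U := Submodule.span F (Set.range v))
    (lt_of_le_of_lt (finrank_range_le_card (R := F) v) (by rwa [Fintype.card_fin])) fun u hu hu' => by
      obtain ⟨c, rfl⟩ := (Submodule.mem_span_range_iff_exists_fun F).mp hu
      refine Finset.sum_eq_zero fun j _ => ?_
      have h := hu' (v j) (Submodule.subset_span ⟨j, rfl⟩)
      rw [map_sum, LinearMap.sum_apply, Finset.sum_eq_single j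
        (fun i _ hij => by rw [map_smul, LinearMap.smul_apply, ho i j hij, smul_zero]) (by simp), map_smul,
        LinearMap.smul_apply, b_self, smul_eq_mul] at h
      rw [(mul_eq_zero.mp h).resolve_right (mul_ne_zero hq.two (hv j)), zero_smul]
  exact ⟨r, hr, fun i => hrU _ (Submodule.subset_span ⟨i, rfl⟩)⟩

/-- A word in `M` equal to a transvection times an isometry, over the field with three elements. -/
theorem sl_le_of_word (b : Module.Basis (Fin 4) F (ι → F)) (f : ZMod 3 →+* F) {D : Fin 4 → ZMod 3} {σ : F}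
    (hb : ∀ i j, q.polarBilin (b i) (b j) = if i = j then 2 * σ * f (D i) else 0)
    {V S O T : GL (Fin 4) (ZMod 3)} (hV : frameHom b f V ∈ M)
    (hS : (S : Matrix (Fin 4) (Fin 4) (ZMod 3))ᵀ * Matrix.diagonal D * S = Matrix.diagonal D)
    (hSd : (S : Matrix (Fin 4) (Fin 4) (ZMod 3)).det = 1)
    (hO : (O : Matrix (Fin 4) (Fin 4) (ZMod 3))ᵀ * Matrix.diagonal D * O = Matrix.diagonal D)
    (hOd : (O : Matrix (Fin 4) (Fin 4) (ZMod 3)).det = 1)
    {c d : Fin 4 → ZMod 3} (hc : c ≠ 0) (hd : d ≠ 0) (hdc : ∑ i, d i * c i = 0)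
    (hT : (T : Matrix (Fin 4) (Fin 4) (ZMod 3)) = 1 + Matrix.of fun i j => c i * d j)
    (hword : S * V * S * (V * V) = T * O) : Cfsg.Geo.specialLinear ι F ≤ M := by
  classical
  haveI : Fact (Nat.Prime 3) := ⟨Nat.prime_three⟩
  have hSM := hH _ (frameHom_iso hq.two hb hS hSd)
  have hTM : frameHom b f T ∈ M := by
    have h := M.mul_mem (M.mul_mem (M.mul_mem (M.mul_mem hSM hV) hSM) (M.mul_mem hV hV))
      (M.inv_mem (hH _ (frameHom_iso hq.two hb hO hOd)))
    have e := congrArg (frameHom b f) hword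
    simp only [map_mul] at e
    rw [e, mul_inv_cancel_right] at h
    exact h
  set φ : (ι → F) →ₗ[F] F := b.constr F fun i => f (d i) with hφ
  set C : ι → F := ∑ i, f (c i) • b i with hC
  have hφb : ∀ i, φ (b i) = f (d i) := fun i => Module.Basis.constr_basis b F _ i
  have hφC : φ C = 0 := by
    rw [hC, map_sum]
    simp only [map_smul, hφb, smul_eq_mul, ← map_mul, ← map_sum]
    rw [show (∑ i, c i * d i) = 0 from Eq.trans (Finset.sum_congr rfl fun i _ => mul_comm _ _) hdc, map_zero]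
  have heq : frameHom b f T = transGL φ C hφC := by
    refine gl_ext fun x => ?_
    have hlin : Matrix.mulVecLin (frameHom b f T : Mat) = Matrix.mulVecLin (transGL φ C hφC : Mat) :=
      b.ext fun j => by
        rw [Matrix.mulVecLin_apply, Matrix.mulVecLin_apply, frameHom_basis, transGL_mulVec, hφb, hT, hC,
          Finset.smul_sum]
        simp only [Matrix.add_apply, Matrix.of_apply, map_add, map_mul, add_smul, Finset.sum_add_distrib, smul_smul]
        congr 1
        · simp [Matrix.one_apply]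
        · exact Finset.sum_congr rfl fun i _ => by rw [mul_comm]
    exact LinearMap.congr_fun hlin x
  rw [heq] at hTM
  obtain ⟨p, hp⟩ := hq.exists_rep φ
  have hT' : HasT q M p C := hasT_congr hTM (fun x => by rw [hp]) (by rw [hp]; exact hφC)
  refine sl_le_of_hasT' hq hH hn (fun h0 => hd ?_) (fun h0 => hc ?_) hT'
  · funext i
    have h1 := hφb i
    rw [← hp, h0, map_zero, LinearMap.zero_apply] at h1
    exact f.injective (by rw [← h1, Pi.zero_apply, map_zero])
  · funext i
    have h1 := Fintype.linearIndependent_iff.mp b.linearIndependent (fun i => f (c i)) h0 i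
    exact f.injective (by rw [h1, Pi.zero_apply, map_zero])

/-- The exceptional configuration over the field with three elements. -/
theorem sl_le_of_three (hsq : ∀ t : F, t ≠ 0 → t * t = 1) {p h r r' : ι → F} {γ : F} (hp : q p ≠ 0) (hh : q h ≠ 0)
    (hrq : q r = q p) (hr'q : q r' = -q p) (hph : q.polarBilin p h = 0) (hpr : q.polarBilin p r = 0)
    (hpr' : q.polarBilin p r' = 0) (hhr : q.polarBilin h r = 0) (hhr' : q.polarBilin h r' = 0)
    (hrr' : q.polarBilin r r' = 0) (hγ : γ ≠ 0) {v : GL ι F} (hvM : v ∈ M) (e0 : (v : Mat) *ᵥ p = p)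
    (e1 : (v : Mat) *ᵥ h = h + (2 * q h) • r) (e2 : (v : Mat) *ᵥ r = r) (e3 : (v : Mat) *ᵥ r' = r' - γ • p) :
    Cfsg.Geo.specialLinear ι F ≤ M := by
  classical
  have h3 : (3 : F) = 0 := by linear_combination hsq 2 hq.two
  haveI : CharP F 3 := ringChar.of_eq (CharP.ringChar_of_prime_eq_zero Nat.prime_three (by exact_mod_cast h3))
  let f : ZMod 3 →+* F := ZMod.castHom (dvd_refl 3) F
  have f2 : f 2 = -1 := by rw [map_ofNat]; linear_combination h3
  set μ := 2 * q h with hμ
  have hμ0 : μ ≠ 0 := mul_ne_zero hq.two hh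
  have hμμ := hsq μ hμ0
  have hγγ := hsq γ hγ
  have hhp : q.polarBilin h p = 0 := by rw [b_comm]; exact hph
  have hrp : q.polarBilin r p = 0 := by rw [b_comm]; exact hpr
  have hr'p : q.polarBilin r' p = 0 := by rw [b_comm]; exact hpr'
  have hrh : q.polarBilin r h = 0 := by rw [b_comm]; exact hhr
  have hr'h : q.polarBilin r' h = 0 := by rw [b_comm]; exact hhr'
  have hr'r : q.polarBilin r' r = 0 := by rw [b_comm]; exact hrr'
  have hqμ : q (μ • r) = q p := by rw [q_smul, hμμ, one_mul, hrq]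
  have hqγ : q (γ • r') = -q p := by rw [q_smul, hγγ, one_mul, hr'q]
  have hv0 : ∀ i, q ((![p, h, μ • r, γ • r'] : Fin 4 → ι → F) i) ≠ 0 := fun i => by
    fin_cases i <;> simp [hp, hh, hqμ, hqγ, hrq, hr'q, hμ0, hγ]
  have hvo : ∀ i j, i ≠ j → q.polarBilin ((![p, h, μ • r, γ • r'] : Fin 4 → ι → F) i)
      ((![p, h, μ • r, γ • r'] : Fin 4 → ι → F) j) = 0 := fun i j hij => by
    fin_cases i <;> fin_cases j <;>
      simp_all [map_smul, LinearMap.smul_apply, -QuadraticMap.polarBilin_apply_apply]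
  haveI : Nonempty (Fin 4) := ⟨0⟩
  set b := basisOfLinearIndependentOfCardEqFinrank (orth_indep hq hv0 hvo)
    (by rw [Fintype.card_fin, Module.finrank_pi, hn]) with hb
  have hbv : ∀ i, b i = (![p, h, μ • r, γ • r'] : Fin 4 → ι → F) i := fun i => by
    rw [hb, coe_basisOfLinearIndependentOfCardEqFinrank]
  have hV : (wordV : Matrix (Fin 4) (Fin 4) (ZMod 3)) = !![1, 0, 0, 2; 0, 1, 0, 0; 0, 1, 1, 0; 0, 0, 0, 1] := rfl
  have hVM : frameHom b f wordV ∈ M := by
    have e : frameHom b f wordV = v := by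
      refine gl_ext fun x => ?_
      have hlin : Matrix.mulVecLin (frameHom b f wordV : Mat) = Matrix.mulVecLin (v : Mat) := b.ext fun j => by
        rw [Matrix.mulVecLin_apply, Matrix.mulVecLin_apply, frameHom_basis, hV, Fin.sum_univ_four]
        fin_cases j <;>
          simp [hbv, f2, e0, e1, e2, e3, Matrix.mulVec_smul, smul_sub, smul_smul, hμμ, hγγ, hμ,
            sub_eq_add_neg, add_comm]
      exact LinearMap.congr_fun hlin x
    rw [e]; exact hvM
  have hgram : ∀ D : Fin 4 → ZMod 3, (∀ i, q ((![p, h, μ • r, γ • r'] : Fin 4 → ι → F) i) = q p * f (D i)) →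
      ∀ i j, q.polarBilin (b i) (b j) = if i = j then 2 * q p * f (D i) else 0 := fun D hD i j => by
    split
    · subst i; rw [b_self, hbv, hD]; ring
    · rename_i hij; rw [hbv, hbv]; exact hvo i j hij
  by_cases hcase : q h = q p
  · have hD := hgram ![1, 1, 1, 2] fun i => by
      fin_cases i <;> simp [hcase, hqμ, hqγ, f2, hrq, hr'q, hμμ, hγγ]
    obtain ⟨k1, k2, k3, k4, k5, k6, k7, k8⟩ := word_data1
    exact sl_le_of_word hq hn hH b f hD hVM k1 k2 k3 k4 k5 k6 k7 k8 word_eq1
  · have hne : q h = -q p := by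
      have h1 : (q h - q p) * (q h + q p) = 0 := by linear_combination hsq _ hh - hsq _ hp
      rcases mul_eq_zero.mp h1 with h2 | h2
      · exact absurd (sub_eq_zero.mp h2) hcase
      · exact eq_neg_of_add_eq_zero_left h2
    have hD := hgram ![1, 2, 1, 2] fun i => by
      fin_cases i <;> simp [hne, hqμ, hqγ, f2, hrq, hr'q, hμμ, hγγ]
    obtain ⟨k1, k2, k3, k4, k5, k6, k7, k8⟩ := word_data2
    exact sl_le_of_word hq hn hH b f hD hVM k1 k2 k3 k4 k5 k6 k7 k8 word_eq2

set_option maxHeartbeats 1000000 in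
/-- The image of a singular vector has proportional polar functional. -/
theorem singular_eigen {g : GL ι F} (hgM : g ∈ M) (hno : ¬ Cfsg.Geo.specialLinear ι F ≤ M) {e : ι → F}
    (he : q e = 0) (he0 : e ≠ 0) :
    ∃ l : F, ∀ y, q.polarBilin ((g : Mat) *ᵥ e) ((g : Mat) *ᵥ y) = l * q.polarBilin e y := by
  classical
  set p := (g : Mat) *ᵥ e with hpdef
  obtain ⟨h, hh⟩ := hq.exists_rep ((q.polarBilin e).comp (Matrix.mulVecLin ((g⁻¹ : GL ι F) : Mat)))
  have hφ : ∀ x, q.polarBilin h x = q.polarBilin e (((g⁻¹ : GL ι F) : Mat) *ᵥ x) := fun x => by rw [hh]; rfl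
  by_cases hmem : p ∈ Submodule.span F {h}
  · obtain ⟨l, hl⟩ := Submodule.mem_span_singleton.mp hmem
    exact ⟨l, fun y => by rw [← hl, map_smul, LinearMap.smul_apply, hφ, gl_inv_mulVec, smul_eq_mul]⟩
  exfalso
  apply hno
  by_contra hno
  set G' : (ι → F) →ₗ[F] (ι → F) := Matrix.mulVecLin ((g⁻¹ : GL ι F) : Mat) with hG'
  let Bp : (ι → F) →ₗ[F] (ι → F) →ₗ[F] F := q.polarBilin.compl₁₂ G' G'
  have hBp : ∀ x y, Bp x y = q.polarBilin (G' x) (G' y) := fun x y => rfl
  have hBc : ∀ x y, Bp x y = Bp y x := fun x y => b_comm _ _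
  have hG'p : G' p = e := by rw [hG', hpdef, Matrix.mulVecLin_apply, gl_inv_mulVec]
  have hBpp : ∀ x, Bp x p = q.polarBilin h x := fun x => by rw [hBp, hG'p, b_comm, hφ]; rfl
  have hBpp' : ∀ x, Bp p x = q.polarBilin h x := fun x => by rw [hBc, hBpp]
  have hp0 : p ≠ 0 := fun h0 => he0 (by rw [← hG'p, h0, map_zero])
  have hh0 : h ≠ 0 := fun h0 => by
    obtain ⟨y, hy⟩ := hq.exists_one he0
    have h1 := hφ ((g : Mat) *ᵥ y)
    rw [h0, map_zero, LinearMap.zero_apply, gl_inv_mulVec, hy] at h1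
    exact zero_ne_one h1
  have hhp : q.polarBilin h p = 0 := by rw [hφ, hpdef, gl_inv_mulVec, b_self, he, mul_zero]
  have hph : q.polarBilin p h = 0 := by rw [b_comm]; exact hhp
  have hv : ∀ a, q.polarBilin h a = 0 → ∃ v ∈ M, ∀ x, (v : Mat) *ᵥ x =
      x + q.polarBilin h x • a - (Bp a x + q (G' a) * q.polarBilin h x) • p := by
    intro a ha
    have hb : q.polarBilin e (G' a) = 0 := by rw [hG', Matrix.mulVecLin_apply, ← hφ]; exact ha
    refine ⟨g * eichGL he hb * g⁻¹, M.mul_mem (M.mul_mem hgM (hH _ (eichGL_iso he hb))) (M.inv_mem hgM),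
      fun x => ?_⟩
    simp only [Units.val_mul, ← Matrix.mulVec_mulVec, eichGL_mulVec, Matrix.mulVec_add, Matrix.mulVec_sub,
      Matrix.mulVec_smul, gl_mulVec_inv, hBp, hG', Matrix.mulVecLin_apply, ← hpdef, hφ]
    module
  -- symmetries of the pair `p`, `h`
  have key : ∀ (s : GL ι F) (δ ε : F), IsoS q s → (s : Mat) *ᵥ p = δ • p → (s : Mat) *ᵥ h = ε • h → δ * δ = 1 →
      ε * ε = 1 → ∀ a, q.polarBilin h a = 0 → ∀ x, ε * Bp ((s : Mat) *ᵥ a) ((s : Mat) *ᵥ x) - δ * Bp a x +
        (q (G' ((s : Mat) *ᵥ a)) - ε * δ * q (G' a)) * (ε * q.polarBilin h x) = 0 := by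
    intro s δ ε hs hsp hsh hδ hε a ha
    have hhs : ∀ x, q.polarBilin h ((s : Mat) *ᵥ x) = ε * q.polarBilin h x := fun x => by
      have h1 := hs.polar h x
      rw [hsh, map_smul, LinearMap.smul_apply, smul_eq_mul] at h1
      rw [← h1, ← mul_assoc, hε, one_mul]
    have hsa : q.polarBilin h ((s : Mat) *ᵥ a) = 0 := by rw [hhs, ha, mul_zero]
    have ha' : q.polarBilin h (ε • ((s : Mat) *ᵥ a)) = 0 := by rw [map_smul, hsa, smul_zero]
    obtain ⟨v, hvM, hvx⟩ := hv a ha
    obtain ⟨v', hv'M, hv'x⟩ := hv _ ha'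
    set χ : (ι → F) →ₗ[F] F := ε • Bp ((s : Mat) *ᵥ a) -
      δ • (Bp a).comp (Matrix.mulVecLin ((s⁻¹ : GL ι F) : Mat)) +
      (q (G' ((s : Mat) *ᵥ a)) - ε * δ * q (G' a)) • q.polarBilin h with hχ
    have hsip : ((s⁻¹ : GL ι F) : Mat) *ᵥ p = δ • p := by
      have h1 := congrArg (fun z => ((s⁻¹ : GL ι F) : Mat) *ᵥ z) hsp
      simp only [gl_inv_mulVec, Matrix.mulVec_smul] at h1
      conv_rhs => rw [h1]
      rw [smul_smul, hδ, one_smul]
    have hχx : ∀ y, χ y = ε * Bp ((s : Mat) *ᵥ a) y - δ * Bp a (((s⁻¹ : GL ι F) : Mat) *ᵥ y) +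
        (q (G' ((s : Mat) *ᵥ a)) - ε * δ * q (G' a)) * q.polarBilin h y := fun y => rfl
    have hχp : χ p = 0 := by
      rw [hχx, hsip, map_smul, hBpp, hBpp, hsa, ha, hhp, smul_zero]; ring
    have hid : s * v = v' * transGL χ p hχp * s := by
      refine gl_ext fun x => ?_
      simp only [Units.val_mul, ← Matrix.mulVec_mulVec, transGL_mulVec, hvx, hv'x, Matrix.mulVec_add,
        Matrix.mulVec_sub, Matrix.mulVec_smul, map_add, map_smul, LinearMap.smul_apply, hχx, gl_inv_mulVec, hhs,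
        hhp, hBpp, hsa, ha, hsp, q_smul, smul_eq_mul]
      match_scalars
      all_goals first
        | ring1
        | linear_combination (norm := ring1) -(q.polarBilin h x) * hε
        | linear_combination (norm := ring1)
            (q (G' a) * q.polarBilin h x * δ + q.polarBilin h x * ε * q (G' ((s : Mat) *ᵥ a))) * hε
    have hTM : transGL χ p hχp ∈ M := by
      have h1 := M.mul_mem (M.mul_mem (M.inv_mem hv'M) (M.mul_mem (hH _ hs) hvM)) (M.inv_mem (hH _ hs))
      rw [hid, mul_assoc v', inv_mul_cancel_left, mul_inv_cancel_right] at h1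
      exact h1
    have hχ0 : χ = 0 := by
      by_contra hne
      obtain ⟨c, hc⟩ := hq.exists_rep χ
      exact hno (sl_le_of_hasT' hq hH hn (p := c) (fun h0 => hne (by rw [← hc, h0, map_zero])) hp0
        (hasT_congr hTM (fun x => by rw [hc]) (by rw [hc]; exact hχp)))
    intro x
    have h1 := hχx ((s : Mat) *ᵥ x)
    rw [hχ0, LinearMap.zero_apply, gl_inv_mulVec, hhs] at h1
    exact h1.symm
  have hinj : Function.Injective q.polarBilin :=
    LinearMap.ker_eq_bot.mp (LinearMap.separatingLeft_iff_ker_eq_bot.mp hq.nondeg.1)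
  obtain ⟨y₀, hy₀⟩ := hq.exists_one hh0
  have hsplit : ∀ ψ : (ι → F) →ₗ[F] F, (∀ z, q.polarBilin h z = 0 → ψ z = 0) → ψ = ψ y₀ • q.polarBilin h :=
    fun ψ hψ => LinearMap.ext fun x => by
      have h1 := hψ (x - q.polarBilin h x • y₀) (by rw [map_sub, map_smul, hy₀, smul_eq_mul, mul_one, sub_self])
      rw [map_sub, map_smul, sub_eq_zero, smul_eq_mul] at h1
      rw [LinearMap.smul_apply, h1, smul_eq_mul, mul_comm]
  have hrad : ∀ z, (∀ y, q.polarBilin h y = 0 → Bp z y = 0) → z ∈ Submodule.span F {p} := by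
    intro z hz
    refine Submodule.mem_span_singleton.mpr ⟨Bp z y₀, sub_eq_zero.mp ?_⟩
    have h0 : G' (Bp z y₀ • p - z) = 0 := hq.eq_zero fun x => by
      have h1 := LinearMap.congr_fun (hsplit (Bp z) hz) ((g : Mat) *ᵥ x)
      have h2 : G' ((g : Mat) *ᵥ x) = x := gl_inv_mulVec g x
      rw [LinearMap.smul_apply, smul_eq_mul, hBp, h2, hφ, gl_inv_mulVec] at h1
      rw [map_sub, map_smul, map_sub, map_smul, LinearMap.sub_apply, LinearMap.smul_apply, hG'p, smul_eq_mul, h1,
        sub_self]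
    exact gl_mulVec_injective g⁻¹ (h0.trans (Matrix.mulVec_zero _).symm)
  have hnp : ∀ c, c ∉ Submodule.span F {h} → ∃ z, q.polarBilin h z = 0 ∧ q.polarBilin c z ≠ 0 := by
    intro c hc
    by_contra hcon
    push Not at hcon
    exact hc (Submodule.mem_span_singleton.mpr
      ⟨q.polarBilin c y₀, hinj (by rw [map_smul]; exact (hsplit _ hcon).symm)⟩)
  have hperp2 : ∀ w, ∃ c, q.polarBilin p c = 0 ∧ q.polarBilin h c = 0 ∧ c ∉ Submodule.span F {w} := by
    intro w
    by_contra hcon
    push Not at hcon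
    set U := Submodule.span F ({p, h} : Set (ι → F))
    have h1 := finrank_orth hq hn U
    have h2 : Module.finrank F U ≤ 2 := by
      have h4 := finrank_span_finset_le_card (R := F) ({p, h} : Finset (ι → F))
      rw [Finset.coe_insert, Finset.coe_singleton] at h4
      exact le_trans h4 Finset.card_le_two
    have h3 := Submodule.finrank_mono (show LinearMap.BilinForm.orthogonal q.polarBilin U ≤ Submodule.span F {w} from
      fun c hc => hcon c (hc p (Submodule.subset_span (by simp))) (hc h (Submodule.subset_span (by simp))))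
    have h4 := finrank_span_finset_le_card (R := F) ({w} : Finset (ι → F))
    rw [Finset.coe_singleton, Finset.card_singleton] at h4
    change Module.finrank F ↥(Submodule.span F {w}) ≤ 1 at h4
    omega
  by_cases hqp : q p = 0
  · obtain ⟨c, hpc, hhc, hcp⟩ := hperp2 p
    obtain ⟨z₀, hz₀, hpz₀⟩ := hnp p hmem
    have hcp' : q.polarBilin c p = 0 := by rw [b_comm]; exact hpc
    have hch : q.polarBilin c h = 0 := by rw [b_comm]; exact hhc
    have hpp : q.polarBilin p p = 0 := by rw [b_self, hqp, mul_zero]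
    have e1 : (eichGL hqp hpc : Mat) *ᵥ p = (1 : F) • p := by rw [eichGL_mulVec, hpp, hcp']; simp
    have e2 : (eichGL hqp hpc : Mat) *ᵥ h = (1 : F) • h := by rw [eichGL_mulVec, hph, hch]; simp
    have k := key _ 1 1 (eichGL_iso hqp hpc) e1 e2 (one_mul 1) (one_mul 1)
    have hexp : ∀ a x, q.polarBilin h a = 0 → q.polarBilin h x = 0 →
        q.polarBilin p a * Bp c x + q.polarBilin p x * Bp a c + q.polarBilin p a * q.polarBilin p x * Bp c c = 0 := by
      intro a x ha hx
      have h1 := k a ha x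
      rw [hx] at h1
      simp only [eichGL_mulVec, map_add, map_sub, map_smul, LinearMap.add_apply, LinearMap.sub_apply,
        LinearMap.smul_apply, hBpp, hBpp', ha, hx, hhc, hhp, smul_eq_mul] at h1
      linear_combination h1
    have hBc0 : ∀ z, q.polarBilin h z = 0 → q.polarBilin p z = 0 → Bp c z = 0 := fun z hz hpz => by
      have h1 := hexp z₀ z hz₀ hz
      rw [hpz] at h1
      exact (mul_eq_zero.mp (by linear_combination h1 : q.polarBilin p z₀ * Bp c z = 0)).resolve_left hpz₀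
    have hcc : Bp c c = 0 := hBc0 c hhc hpc
    have hcz₀ : Bp c z₀ = 0 := by
      have h1 := hexp z₀ z₀ hz₀ hz₀
      rw [hcc, hBc z₀ c] at h1
      exact (mul_eq_zero.mp (by linear_combination h1 : (2 * q.polarBilin p z₀) * Bp c z₀ = 0)).resolve_left
        (mul_ne_zero hq.two hpz₀)
    refine hcp (hrad c fun y hy => ?_)
    have h1 := hBc0 (y - (q.polarBilin p y / q.polarBilin p z₀) • z₀)
      (by rw [map_sub, map_smul, hy, hz₀, smul_zero, sub_zero])
      (by rw [map_sub, map_smul, smul_eq_mul, div_mul_cancel₀ _ hpz₀, sub_self])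
    rwa [map_sub, map_smul, hcz₀, smul_zero, sub_zero] at h1
  by_cases hqh : q h = 0
  · obtain ⟨c, hpc, hhc, hch⟩ := hperp2 h
    obtain ⟨z₀, hz₀, hcz₀⟩ := hnp c hch
    have hcp' : q.polarBilin c p = 0 := by rw [b_comm]; exact hpc
    have hch' : q.polarBilin c h = 0 := by rw [b_comm]; exact hhc
    have hhh : q.polarBilin h h = 0 := by rw [b_self, hqh, mul_zero]
    have e1 : (eichGL hqh hhc : Mat) *ᵥ p = (1 : F) • p := by rw [eichGL_mulVec, hhp, hcp']; simp
    have e2 : (eichGL hqh hhc : Mat) *ᵥ h = (1 : F) • h := by rw [eichGL_mulVec, hhh, hch']; simp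
    have k := key _ 1 1 (eichGL_iso hqh hhc) e1 e2 (one_mul 1) (one_mul 1)
    have hexp : ∀ a x, q.polarBilin h a = 0 → q.polarBilin h x = 0 →
        q.polarBilin c a * Bp h x + q.polarBilin c x * Bp a h - q.polarBilin c a * q.polarBilin c x * Bp h h = 0 := by
      intro a x ha hx
      have h1 := k a ha x
      rw [hx] at h1
      simp only [eichGL_mulVec, map_add, map_sub, map_smul, LinearMap.add_apply, LinearMap.sub_apply,
        LinearMap.smul_apply, ha, hx, smul_eq_mul, zero_smul, mul_zero, add_zero, sub_zero, map_zero,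
        LinearMap.zero_apply] at h1
      linear_combination -h1
    have hBh0 : ∀ z, q.polarBilin h z = 0 → q.polarBilin c z = 0 → Bp h z = 0 := fun z hz hcz => by
      have h1 := hexp z₀ z hz₀ hz
      rw [hcz] at h1
      exact (mul_eq_zero.mp (by linear_combination h1 : q.polarBilin c z₀ * Bp h z = 0)).resolve_left hcz₀
    have hhh' : Bp h h = 0 := hBh0 h hhh hch'
    have hhz₀ : Bp h z₀ = 0 := by
      have h1 := hexp z₀ z₀ hz₀ hz₀
      rw [hhh', hBc z₀ h] at h1
      exact (mul_eq_zero.mp (by linear_combination h1 : (2 * q.polarBilin c z₀) * Bp h z₀ = 0)).resolve_left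
        (mul_ne_zero hq.two hcz₀)
    obtain ⟨k', hk'⟩ := Submodule.mem_span_singleton.mp (hrad h fun y hy => by
      have h1 := hBh0 (y - (q.polarBilin c y / q.polarBilin c z₀) • z₀)
        (by rw [map_sub, map_smul, hy, hz₀, smul_zero, sub_zero])
        (by rw [map_sub, map_smul, smul_eq_mul, div_mul_cancel₀ _ hcz₀, sub_self])
      rwa [map_sub, map_smul, hhz₀, smul_zero, sub_zero] at h1)
    have hk0 : k' ≠ 0 := fun h0 => hh0 (by rw [← hk', h0, zero_smul])
    exact hmem (Submodule.mem_span_singleton.mpr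
      ⟨k'⁻¹, by rw [← hk', smul_smul, inv_mul_cancel₀ hk0, one_smul]⟩)
  -- both anisotropic
  have hside : ∀ r, q r ≠ 0 → q.polarBilin r p = 0 → q.polarBilin r h = 0 →
      Bp r r = 0 ∧ ∀ x, Bp ((-1 : F) • r) (x - (q.polarBilin h x / q h) • h - (q.polarBilin r x / q r) • r) +
        Bp r x = 0 := by
    intro r hr hrp hrh
    have hhr : q.polarBilin h r = 0 := by rw [b_comm]; exact hrh
    obtain ⟨s, hs, hsx⟩ := half_turn hq hqh hr hhr
    have e1 : (s : Mat) *ᵥ p = (1 : F) • p := by rw [hsx, hhp, hrp]; simp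
    have e2 : (s : Mat) *ᵥ h = (-1 : F) • h := by
      rw [hsx, hrh, b_self, mul_div_assoc, div_self hqh]; module
    have e3 : (s : Mat) *ᵥ r = (-1 : F) • r := by
      rw [hsx, hhr, b_self, mul_div_assoc, div_self hr]; module
    have k := key s 1 (-1) hs e1 e2 (one_mul 1) (by ring) r hhr
    have hrr : Bp r r = 0 := by
      have h1 := k r
      simp only [hhr, e3, map_smul, LinearMap.smul_apply, smul_eq_mul] at h1
      exact (mul_eq_zero.mp (by linear_combination -h1 : (2 : F) * Bp r r = 0)).resolve_left hq.two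
    refine ⟨hrr, fun x => ?_⟩
    have hQ0 : q (G' r) = 0 := by
      rw [hBp, b_self] at hrr
      exact (mul_eq_zero.mp hrr).resolve_left hq.two
    have h1 := k x
    rw [e3, map_smul G', q_smul, hQ0, hsx] at h1
    linear_combination -h1
  obtain ⟨r₁, hr₁, hr₁o⟩ := aniso_perp_orth hq hn (k := 2) (by norm_num) (v := ![p, h])
    (fun i => by fin_cases i <;> assumption) (fun i j hij => by
      fin_cases i <;> fin_cases j <;> first | exact absurd rfl hij | assumption)
  have hr₁p : q.polarBilin r₁ p = 0 := hr₁o 0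
  have hr₁h : q.polarBilin r₁ h = 0 := hr₁o 1
  have hpr₁ : q.polarBilin p r₁ = 0 := by rw [b_comm]; exact hr₁p
  have hhr₁ : q.polarBilin h r₁ = 0 := by rw [b_comm]; exact hr₁h
  obtain ⟨r₂, hr₂, hr₂o⟩ := aniso_perp_orth hq hn (k := 3) (by norm_num) (v := ![p, h, r₁])
    (fun i => by fin_cases i <;> assumption) (fun i j hij => by
      fin_cases i <;> fin_cases j <;> first | exact absurd rfl hij | assumption)
  have hr₂p : q.polarBilin r₂ p = 0 := hr₂o 0
  have hr₂h : q.polarBilin r₂ h = 0 := hr₂o 1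
  have hr₂r₁ : q.polarBilin r₂ r₁ = 0 := hr₂o 2
  have hpr₂ : q.polarBilin p r₂ = 0 := by rw [b_comm]; exact hr₂p
  have hhr₂ : q.polarBilin h r₂ = 0 := by rw [b_comm]; exact hr₂h
  have hr₁r₂ : q.polarBilin r₁ r₂ = 0 := by rw [b_comm]; exact hr₂r₁
  -- the form on the orthogonal complement is a hyperbolic pair for the pulled back form
  have hγ : Bp r₁ r₂ ≠ 0 := by
    intro hγ
    haveI : Nonempty (Fin 4) := ⟨0⟩
    have hli := orth_indep hq (v := ![p, h, r₁, r₂]) (fun i => by fin_cases i <;> assumption)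
      (fun i j hij => by fin_cases i <;> fin_cases j <;> first | exact absurd rfl hij | assumption)
    set b := basisOfLinearIndependentOfCardEqFinrank hli (by rw [Fintype.card_fin, Module.finrank_pi, hn])
    obtain ⟨k, hk⟩ := Submodule.mem_span_singleton.mp (hrad r₁ fun y hy => by
      have hy' := b.sum_repr y
      rw [coe_basisOfLinearIndependentOfCardEqFinrank, Fin.sum_univ_four] at hy'
      simp only [Matrix.cons_val] at hy'
      set c := b.repr y
      rw [← hy'] at hy ⊢
      simp only [map_add, map_smul, hhp, b_self, hhr₁, hhr₂, smul_eq_mul, mul_zero, add_zero, zero_add] at hy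
      rw [(mul_eq_zero.mp hy).resolve_right (mul_ne_zero hq.two hqh)]
      simp only [map_add, map_smul, hBpp, hhr₁, (hside r₁ hr₁ hr₁p hr₁h).1, hγ, smul_zero, zero_smul, map_zero,
        add_zero])
    rw [← hk, map_smul, smul_eq_mul, b_self] at hpr₁
    rw [← hk, (mul_eq_zero.mp hpr₁).resolve_right (mul_ne_zero hq.two hqp), zero_smul, QuadraticMap.map_zero] at hr₁
    exact hr₁ rfl
  by_cases ht : ∃ t : F, t ≠ 0 ∧ q r₁ + t * t * q r₂ ≠ 0
  · obtain ⟨t, ht0, ht⟩ := ht
    have hr : q (r₁ + t • r₂) ≠ 0 := by rwa [q_add, q_smul, map_smul, hr₁r₂, smul_zero, add_zero]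
    have h1 := (hside _ hr (by rw [LinearMap.map_add₂, LinearMap.map_smul₂, hr₁p, hr₂p, smul_zero, add_zero])
      (by rw [LinearMap.map_add₂, LinearMap.map_smul₂, hr₁h, hr₂h, smul_zero, add_zero])).1
    simp only [map_add, map_smul, LinearMap.add_apply, LinearMap.smul_apply, (hside r₁ hr₁ hr₁p hr₁h).1,
      (hside r₂ hr₂ hr₂p hr₂h).1, hBc r₂ r₁, smul_eq_mul, mul_zero, add_zero, zero_add] at h1
    exact mul_ne_zero (mul_ne_zero hq.two ht0) hγ (by linear_combination h1)
  push Not at ht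
  have hneg : q r₂ = -q r₁ := by linear_combination ht 1 one_ne_zero
  have hsq : ∀ t : F, t ≠ 0 → t * t = 1 := fun t ht0 => by
    have h1 := ht t ht0
    rw [hneg] at h1
    exact sub_eq_zero.mp ((mul_eq_zero.mp (by linear_combination -h1 : (t * t - 1) * q r₁ = 0)).resolve_right hr₁)
  have hfin : ∀ r r', q r ≠ 0 → q.polarBilin r p = 0 → q.polarBilin r h = 0 → q.polarBilin p r' = 0 →
      q.polarBilin h r' = 0 → q.polarBilin r r' = 0 → q r = q p → q r' = -q p → Bp r r' ≠ 0 →
      Cfsg.Geo.specialLinear ι F ≤ M := by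
    intro r r' hr hrp hrh hpr' hhr' hrr' hrq hr'q hne
    have hhr : q.polarBilin h r = 0 := by rw [b_comm]; exact hrh
    obtain ⟨hrr, hall⟩ := hside r hr hrp hrh
    have hκ : Bp r h = 0 := by
      have h1 := hall h
      rw [hrh, b_self, mul_div_assoc, div_self hqh, zero_div, zero_smul, sub_zero, mul_one] at h1
      rw [show h - (2 : F) • h = (-1 : F) • h by module, map_smul, map_smul, LinearMap.smul_apply, smul_eq_mul,
        smul_eq_mul] at h1
      exact (mul_eq_zero.mp (by linear_combination h1 : (2 : F) * Bp r h = 0)).resolve_left hq.two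
    have hQ0 : q (G' r) = 0 := by
      rw [hBp, b_self] at hrr
      exact (mul_eq_zero.mp hrr).resolve_left hq.two
    obtain ⟨v, hvM, hvx⟩ := hv r hhr
    refine sl_le_of_three hq hn hH hsq hqp hqh hrq hr'q hph (by rw [b_comm]; exact hrp) hpr' hhr hhr' hrr' hne hvM
      ?_ ?_ ?_ ?_
    · rw [hvx, hhp, hBpp, hhr]; simp
    · rw [hvx, hκ, hQ0, b_self]; simp
    · rw [hvx, hhr, hrr]; simp
    · rw [hvx, hhr', hQ0]; simp
  have hpm : q r₁ = q p ∨ q r₂ = q p := by
    have h1 : (q r₁ - q p) * (q r₁ + q p) = 0 := by linear_combination hsq _ hr₁ - hsq _ hqp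
    rcases mul_eq_zero.mp h1 with h2 | h2
    · exact Or.inl (sub_eq_zero.mp h2)
    · exact Or.inr (by linear_combination hneg - h2)
  rcases hpm with h1 | h1
  · exact hno (hfin r₁ r₂ hr₁ hr₁p hr₁h hpr₂ hhr₂ hr₁r₂ h1 (by rw [hneg, h1]) hγ)
  · exact hno (hfin r₂ r₁ hr₂ hr₂p hr₂h hpr₁ hhr₁ hr₂r₁ h1 (by linear_combination hneg - h1)
      (by rw [hBc]; exact hγ))

/-- An element of an overgroup that is not the special linear group is a similitude. -/
theorem sim_of_no_transvection {g : GL ι F} (hgM : g ∈ M) (hno : ¬ Cfsg.Geo.specialLinear ι F ≤ M) :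
    ∃ L : F, L ≠ 0 ∧ ∀ v, q ((g : Mat) *ᵥ v) = L * q v := by
  classical
  set G : (ι → F) →ₗ[F] (ι → F) := Matrix.mulVecLin (g : Mat) with hG
  let Ψ : (ι → F) →ₗ[F] ((ι → F) →ₗ[F] F) := q.polarBilin.compl₁₂ G G
  have hΨ : ∀ x y, Ψ x y = q.polarBilin ((g : Mat) *ᵥ x) ((g : Mat) *ᵥ y) := fun x y => rfl
  have hscal : ∀ {e : ι → F}, q e = 0 → e ≠ 0 → ∃ l : F, ∀ y, Ψ e y = l * q.polarBilin e y :=
    fun he he0 => singular_eigen hq hn hH hgM hno he he0
  have hsame : ∀ w v l l', q w = 0 → q v = 0 → q.polarBilin w v ≠ 0 →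
      (∀ y, Ψ w y = l * q.polarBilin w y) → (∀ y, Ψ v y = l' * q.polarBilin v y) → l = l' := by
    intro w v l l' _ _ hwv h1 h2
    have h3 := h1 v
    rw [hΨ, b_comm, ← hΨ, h2, b_comm v w] at h3
    exact (mul_right_cancel₀ hwv h3).symm
  obtain ⟨e₀, f₀, he₀, -, hef₀, -, -, he₀0⟩ := pair_one hq hn (p := 0) (Or.inr rfl)
  obtain ⟨L, hL⟩ := hscal he₀ he₀0
  have hL0 : L ≠ 0 := fun h0 => by
    refine he₀0 (gl_mulVec_injective g (Eq.trans (hq.eq_zero fun y => ?_) (Matrix.mulVec_zero _).symm))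
    have h1 := hL (((g⁻¹ : GL ι F) : Mat) *ᵥ y)
    rw [hΨ, gl_mulVec_inv, h0, zero_mul] at h1
    exact h1
  have htop : ∀ x, Ψ x = L • q.polarBilin x := fun x => by
    have := span_one hq hn (p := 0) (Or.inr rfl) (LinearMap.ker (Ψ - L • q.polarBilin)) (fun w hw _ => ?_) (x := x)
      (by simp)
    · rwa [LinearMap.mem_ker, LinearMap.sub_apply, LinearMap.smul_apply, sub_eq_zero] at this
    rw [LinearMap.mem_ker, LinearMap.sub_apply, LinearMap.smul_apply, sub_eq_zero]
    rcases eq_or_ne w 0 with rfl | hw0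
    · simp
    obtain ⟨l, hl⟩ := hscal hw hw0
    suffices hlL : l = L by
      refine LinearMap.ext fun y => ?_
      rw [LinearMap.smul_apply, smul_eq_mul, ← hlL]
      exact hl y
    by_cases hew : q.polarBilin e₀ w = 0
    · obtain ⟨u, hu, h1, h2⟩ := sing_link hq hn he₀ he₀0 hw hw0 hew
      have hu0 : u ≠ 0 := fun h0 => h1 (by rw [h0, map_zero])
      obtain ⟨m, hm⟩ := hscal hu hu0
      rw [hsame w u l m hw hu h2 hl hm, hsame e₀ u L m he₀ hu h1 hL hm]
    · exact (hsame e₀ w L l he₀ hw hew hL hl).symm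
  refine ⟨L, hL0, fun v => ?_⟩
  have h1 := LinearMap.congr_fun (htop v) v
  rw [hΨ, b_self, LinearMap.smul_apply, b_self, smul_eq_mul] at h1
  exact mul_left_cancel₀ hq.two (by linear_combination h1)

omit hH in
/-- The similitudes are maximal in the special linear group. -/
theorem sl_orth_maximal_four :
    Cfsg.Geo.IsMaximalIn (Cfsg.Geo.specialLinear ι F)
      (Cfsg.Geo.quadSimilarityGroup (⇑q) ⊓ Cfsg.Geo.specialLinear ι F) := by
  classical
  refine isMaximalIn_of inf_le_right ?_ fun M h1 h2 g hgM hgH => ?_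
  · obtain ⟨e, f, hee, hff, hef, -, -, -⟩ := pair_one hq hn (p := 0) (Or.inr rfl)
    have hfe : q.polarBilin f e = 1 := by rw [b_comm]; exact hef
    have he' : q.polarBilin e e = 0 := by rw [b_self, hee, mul_zero]
    refine ⟨transGL (q.polarBilin e) e he', transGL_mem_sl _ _ _, fun hm => ?_⟩
    obtain ⟨c, hc⟩ := hm.1
    have := hc f
    rw [transGL_mulVec, hef, one_smul, hff, mul_zero, q_add, hff, hee, hfe] at this
    simp at this
  by_contra hno
  obtain ⟨L, hL0, hL⟩ := sim_of_no_transvection (M := M) hq hn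
    (fun k hk => h1 ⟨⟨1, fun v => by rw [hk.1, Units.val_one, one_mul]⟩, hk.2⟩) hgM hno
  exact hgH ⟨⟨Units.mk0 L hL0, hL⟩, h2 hgM⟩

end Similitude

end Cfsg.Agent.H99.SLFour.Orth
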