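import Cfsg.Agent.H50.LowDim.Decomp

set_option autoImplicit false
set_option linter.unusedSectionVars false

/-!
The stabiliser of a pair of complementary planes is maximal in the four dimensional special linear group over at
least four scalars.
-/

namespace Cfsg.Agent.H99.SLFour

open Matrix Cfsg.Agent.H1.Decomp

variable {t : ℕ} {ι : Type} [Fintype ι] [DecidableEq ι] {F : Type*} [Field F] [Fintype F]
variable {M : Subgroup (GL ι F)} {blk : ι → Fin t}

/-- A matrix that respects each block. -/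
def BlockId (blk : ι → Fin t) (A : Matrix ι ι F) : Prop := ∀ k i, A k i ≠ 0 → blk k = blk i

theorem blockId_blockLike {A : Matrix ι ι F} (h : BlockId blk A) : BlockLike blk A := ⟨id, h⟩

theorem blockId_mul {A B : GL ι F} (hA : BlockId blk (A : Matrix ι ι F)) (hB : BlockId blk (B : Matrix ι ι F)) :
    BlockId blk ((A * B : GL ι F) : Matrix ι ι F) := by
  intro k i hki
  rw [Units.val_mul, Matrix.mul_apply] at hki
  obtain ⟨l, -, hl⟩ := Finset.exists_ne_zero_of_sum_ne_zero hki
  exact (hA k l (left_ne_zero_of_mul hl)).trans (hB l i (right_ne_zero_of_mul hl))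

theorem blockId_refl {a : Fin t} {w ρ : ι → F} {c : F} {A : GL ι F} (hw : Sup blk a w) (hρ : Sup blk a ρ)
    (hA : (A : Matrix ι ι F) = 1 + vecMulVec (c • w) ρ) : BlockId blk (A : Matrix ι ι F) := by
  intro k i hki
  by_contra hne
  refine hki ?_
  rw [hA, Matrix.add_apply, Matrix.one_apply, if_neg (fun h => hne (by rw [h])), zero_add, vecMulVec_apply]
  by_cases hk : blk k = a
  · rw [hρ i (fun h => hne (hk.trans h.symm)), mul_zero]
  · rw [Pi.smul_apply, hw k hk, smul_zero, zero_mul]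

theorem block_mem (hM : ContainsBlock blk M) {A B : GL ι F} {a b : Fin t} {w ρ w' ρ' : ι → F} {c c' : F}
    (hw : Sup blk a w) (hρ : Sup blk a ρ) (hw' : Sup blk b w') (hρ' : Sup blk b ρ')
    (hA : (A : Matrix ι ι F) = 1 + vecMulVec (c • w) ρ) (hB : (B : Matrix ι ι F) = 1 + vecMulVec (c' • w') ρ')
    (hdet : ((A * B : GL ι F) : Matrix ι ι F).det = 1) : A * B ∈ M :=
  hM _ hdet (blockId_blockLike (blockId_mul (blockId_refl hw hρ hA) (blockId_refl hw' hρ' hB)))

/-- With two blocks, a transvection across them. -/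
theorem exists_cross_two (hM : ContainsBlock blk M) (h2 : TwoInBlocks blk)
    (hq : 4 ≤ Fintype.card F) (htwo : ∀ a b c : Fin t, a ≠ b → c = a ∨ c = b)
    {g : GL ι F} (hg : g ∈ M) (hgB : ¬ BlockLike blk (g : Matrix ι ι F)) :
    ∃ i j, blk i ≠ blk j ∧ Has M (Pi.single i 1) (Pi.single j (1 : F)) := by
  classical
  obtain ⟨a₀, w₀, hw₀, k₀, l₀, hkl, hk₀, hl₀⟩ := exists_spread_vec hgB
  obtain ⟨i₀, hi₀⟩ : ∃ i, w₀ i ≠ 0 := by
    by_contra hc; push Not at hc
    exact hk₀ (by simp [show w₀ = 0 from funext hc])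
  obtain ⟨i₁, hi₁, hbi₁⟩ := h2 i₀
  have hia : blk i₀ = a₀ := by by_contra h; exact hi₀ (hw₀ i₀ h)
  set ψ₀ : ι → F := Pi.single i₁ 1 - (w₀ i₁ / w₀ i₀) • Pi.single i₀ 1 with hψ₀
  have hψw : ψ₀ ⬝ᵥ w₀ = 0 := by simp [hψ₀, sub_dotProduct, hi₀]
  have hψs : Sup blk a₀ ψ₀ :=
    sup_sub (by rw [← hia, ← hbi₁]; exact sup_single i₁ 1) (sup_smul (hia ▸ sup_single i₀ 1) _)
  have h := (has_block hM hw₀ hψs hψw).conj hg
  set v := (g : Matrix ι ι F) *ᵥ w₀
  set φ := ψ₀ ᵥ* ((g⁻¹ : GL ι F) : Matrix ι ι F)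
  have h0 : φ ⬝ᵥ v = 0 := by
    rw [← dotProduct_mulVec, Cfsg.Agent.H98.gl_inv_mulVec, hψw]
  have hφ0 : φ ≠ 0 := by
    intro he
    have := congrArg (fun x => x ᵥ* (g : Matrix ι ι F)) he
    simp only [φ, vecMul_vecMul, ← Units.val_mul, inv_mul_cancel, Units.val_one, vecMul_one, zero_vecMul] at this
    have := congrFun this i₁
    simp [hψ₀, hi₁] at this
  have hout : ∀ c, ∃ k, blk k ≠ c ∧ v k ≠ 0 := by
    intro c
    by_cases hk : blk k₀ = c
    · exact ⟨l₀, fun he => hkl (hk.trans he.symm), hl₀⟩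
    · exact ⟨k₀, hk, hk₀⟩
  -- the restriction to a block
  let r : Fin t → (ι → F) → (ι → F) := fun c x k => if blk k = c then x k else 0
  have hr : ∀ c x, Sup blk c (r c x) := fun c x k hk => by simp [r, hk]
  have hrdot : ∀ c x ψ, Sup blk c ψ → ψ ⬝ᵥ r c x = ψ ⬝ᵥ x := fun c x ψ hψ =>
    Finset.sum_congr rfl fun k _ => by
      by_cases hk : blk k = c
      · simp [r, hk]
      · simp [hψ k hk]
  have caseI : ∀ c u, Sup blk c u → φ ⬝ᵥ u = 0 → (∃ i, u i ≠ 0 ∧ ∃ k, r c v k ≠ r c v i / u i * u k) →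
      ∃ i j, blk i ≠ blk j ∧ Has M (Pi.single i 1) (Pi.single j (1 : F)) := by
    rintro c u hu hφu ⟨i, hi, hne⟩
    obtain ⟨ψ, hψ, hψu, hψv⟩ := exists_sep hu (hr c v) hi hne
    rw [hrdot c v ψ hψ] at hψv
    have e1 := h.move_vec hM h0 hu hψ hψu hφu hψv
    by_cases hsup : Sup blk c φ
    · obtain ⟨k, hk, hvk⟩ := hout c
      exact cross_of_fun_in_block hM h2 h h0 hsup hφ0 hk hvk
    · simp only [Sup, not_forall] at hsup
      obtain ⟨k, hk, hφk⟩ := hsup
      exact cross_of_vec_in_block hM h2 e1 hφu hu (fun he => hi (by simp [he])) hk hφk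
  by_contra hcon
  have noI : ∀ c u, Sup blk c u → φ ⬝ᵥ u = 0 → ∀ i, u i ≠ 0 → ∀ k, r c v k = r c v i / u i * u k := by
    intro c u hu hu0 i hi k
    by_contra hne
    exact hcon (caseI c u hu hu0 ⟨i, hi, k, hne⟩)
  have hA : ∀ k, φ k ≠ 0 → r (blk k) v ≠ 0 := by
    intro k hk hz
    obtain ⟨k', hk', hb⟩ := h2 k
    have hvk' : v k' = 0 := by simpa [r, hb] using congrFun hz k'
    have e1 : Has M v (Pi.single k' 1) := by
      refine h.move_fun hM h0 (u := Pi.single k (φ k)⁻¹) (sup_single k _) ?_ ?_ ?_ ?_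
      · rw [← hb]; exact sup_single k' 1
      · simp [hk']
      · simp [hk]
      · simpa using hvk'
    obtain ⟨l, hl, hvl⟩ := hout (blk k)
    refine hcon (cross_of_fun_in_block hM h2 e1 (by simpa using hvk') (hb ▸ sup_single k' 1) ?_ hl hvl)
    intro he; simpa using congrFun he k'
  have hB : ∀ k, v k ≠ 0 → (∃ l, blk l = blk k ∧ φ l ≠ 0) ∧ φ ⬝ᵥ r (blk k) v = 0 := by
    intro k hk
    obtain ⟨k', hk', hb⟩ := h2 k
    by_cases hp : φ k' = 0
    · have := noI (blk k) (Pi.single k' 1) (hb ▸ sup_single k' 1) (by simp [hp]) k' (by simp) k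
      simp [r, hb, hk'.symm] at this
      exact absurd this hk
    · set u : ι → F := φ k' • Pi.single k 1 - φ k • Pi.single k' 1 with hu
      have hsu : Sup blk (blk k) u := sup_sub (sup_smul (sup_single k 1) _) (sup_smul (hb ▸ sup_single k' 1) _)
      have hφu : φ ⬝ᵥ u = 0 := by simp [hu, dotProduct_sub]; ring
      have huk : u k ≠ 0 := by simp [hu, hk'.symm, hp]
      refine ⟨⟨k', hb, hp⟩, ?_⟩
      have : r (blk k) v = (r (blk k) v k / u k) • u :=
        funext fun l => by simpa using noI (blk k) u hsu hφu k huk l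
      rw [this, dotProduct_smul, hφu, smul_zero]
  set a := blk k₀
  set b := blk l₀
  obtain ⟨⟨ka, hka, hφka⟩, hzero_a⟩ := hB k₀ hk₀
  obtain ⟨⟨kb, hkb, hφkb⟩, hzero_b⟩ := hB l₀ hl₀
  have hab : a ≠ b := hkl
  have hφsum : φ = r a φ + r b φ := funext fun k => by
    rcases htwo a b (blk k) hab with hk | hk <;> simp [r, hk, hab, hab.symm]
  have hrs : ∀ c ρ, Sup blk c ρ → ρ ⬝ᵥ r c v = ρ ⬝ᵥ v := fun c ρ hρ => hrdot c v ρ hρ
  have hoth : ∀ (c d : Fin t) (x y : ι → F), Sup blk c x → c ≠ d → x ⬝ᵥ r d y = 0 := fun c d x y hx hcd =>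
    sup_dot_eq_zero (hr d y) hx (Ne.symm hcd)
  have haφ : r a φ ⬝ᵥ v = 0 := by
    rw [← hrs a _ (hr a φ), dotProduct_comm, hrdot a φ (r a v) (hr a v), dotProduct_comm]; exact hzero_a
  have hbφ : r b φ ⬝ᵥ v = 0 := by
    rw [← hrs b _ (hr b φ), dotProduct_comm, hrdot b φ (r b v) (hr b v), dotProduct_comm]; exact hzero_b
  -- the scaling of the functional
  have hscale : ∀ x z ν : F, ν ≠ 0 → Has M v (x • r a φ + z • r b φ) →
      Has M v ((x / ν) • r a φ + (z * ν) • r b φ) := by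
    intro x z ν hν h
    set wa : ι → F := Pi.single ka (φ ka)⁻¹ with hwa
    set wb : ι → F := Pi.single kb (φ kb)⁻¹ with hwb
    have h1 : r a φ ⬝ᵥ wa = 1 := by simp [hwa, r, show blk ka = a from hka, hφka]
    have h2' : r b φ ⬝ᵥ wb = 1 := by simp [hwb, r, show blk kb = b from hkb, hφkb]
    have h12 : r a φ ⬝ᵥ wb = 0 := by simp [hwb, r, show blk kb = b from hkb, hab.symm]
    have h21 : r b φ ⬝ᵥ wa = 0 := by simp [hwa, r, show blk ka = a from hka, hab]
    obtain ⟨A, hA1, hA2, hA3⟩ := exists_refl wa (r a φ) ν hν h1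
    obtain ⟨B, hB1, hB2, hB3⟩ := exists_refl wb (r b φ) ν⁻¹ (inv_ne_zero hν) h2'
    have hAB : A * B ∈ M := block_mem hM (A := A) (B := B) (a := a) (b := b)
      (by rw [show a = blk ka from hka.symm]; exact sup_single ka _) (hr a φ)
      (by rw [show b = blk kb from hkb.symm]; exact sup_single kb _) (hr b φ) hA1 hB1
      (by rw [Units.val_mul, det_mul, hA3, hB3, mul_inv_cancel₀ hν])
    have := h.conj hAB
    refine this.congr ?_ ?_
    · rw [Units.val_mul, ← mulVec_mulVec, hB1, add_mulVec, one_mulVec, vecMulVec_mulVec, hbφ, hA1]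
      simp [add_mulVec, Matrix.smul_mulVec, vecMulVec_mulVec, haφ]
    · rw [_root_.mul_inv_rev, Units.val_mul, hA2, hB2, ← vecMul_vecMul]
      simp only [vecMul_add, vecMul_one, vecMul_vecMulVec, add_dotProduct, smul_dotProduct, dotProduct_smul, h1, h2',
        h12, h21, inv_inv]
      module
  -- the scaling of the centre
  have hcent : ∀ x z s : F, s ≠ 0 → Has M v (x • r a φ + z • r b φ) →
      Has M v ((s * x) • r a φ + (s ^ 3 * z) • r b φ) := by
    intro x z s hs h
    obtain ⟨la, hla, hla'⟩ : ∃ la, blk la = a ∧ v la ≠ 0 := ⟨k₀, rfl, hk₀⟩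
    obtain ⟨lb, hlb, hlb'⟩ : ∃ lb, blk lb = b ∧ v lb ≠ 0 := ⟨l₀, rfl, hl₀⟩
    set ρa : ι → F := Pi.single la (v la)⁻¹ with hρa
    set ρb : ι → F := Pi.single lb (v lb)⁻¹ with hρb
    have hρas : Sup blk a ρa := hla ▸ sup_single la _
    have hρbs : Sup blk b ρb := hlb ▸ sup_single lb _
    have h1 : ρa ⬝ᵥ r a v = 1 := by simp [hρa, r, hla, hla']
    have h1' : ρb ⬝ᵥ r b v = 1 := by simp [hρb, r, hlb, hlb']
    obtain ⟨A, hA1, hA2, hA3⟩ := exists_refl (r a v) ρa s hs h1
    obtain ⟨B, hB1, hB2, hB3⟩ := exists_refl (r b v) ρb s hs h1'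
    -- compensate the determinant on the second functional
    set wb : ι → F := Pi.single kb (φ kb)⁻¹ with hwb
    have h2' : r b φ ⬝ᵥ wb = 1 := by simp [hwb, r, show blk kb = b from hkb, hφkb]
    obtain ⟨C, hC1, hC2, hC3⟩ := exists_refl wb (r b φ) (s ^ 2)⁻¹ (inv_ne_zero (pow_ne_zero 2 hs)) h2'
    have hwbs : Sup blk b wb := by rw [show b = blk kb from hkb.symm]; exact sup_single kb _
    have hmem : A * B * C ∈ M := by
      refine hM _ (by rw [Units.val_mul, Units.val_mul, det_mul, det_mul, hA3, hB3, hC3]; field_simp) ?_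
      refine blockId_blockLike (blockId_mul (blockId_mul (blockId_refl (hr a v) hρas hA1) (blockId_refl (hr b v) hρbs hB1))
        (blockId_refl hwbs (hr b φ) hC1))
    have hvsum : v = r a v + r b v := funext fun k => by
      rcases htwo a b (blk k) hab with hk | hk <;> simp [r, hk, hab, hab.symm]
    have hρav : ρa ⬝ᵥ v = 1 := by rw [← hrs a ρa hρas]; exact h1
    have hρbv : ρb ⬝ᵥ v = 1 := by rw [← hrs b ρb hρbs]; exact h1'
    have hCv : (C : Matrix ι ι F) *ᵥ v = v := by
      rw [hC1, add_mulVec, one_mulVec, vecMulVec_mulVec, hbφ]; simp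
    have e1 : ((A * B * C : GL ι F) : Matrix ι ι F) *ᵥ v = s • v := by
      rw [Units.val_mul, Units.val_mul, ← mulVec_mulVec, hCv, ← mulVec_mulVec, hB1, add_mulVec, one_mulVec,
        vecMulVec_mulVec, hρbv, hA1, MulOpposite.op_one, one_smul, add_mulVec, one_mulVec, vecMulVec_mulVec,
        dotProduct_add, hρav, dotProduct_smul, hoth a b ρa v hρas hab]
      simp only [smul_zero, add_zero, MulOpposite.op_one, one_smul]
      linear_combination (norm := module) (s - 1) • hvsum.symm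
    have e2 : ∀ (X : GL ι F) (w ρ : ι → F) (ν : F),
        ((X⁻¹ : GL ι F) : Matrix ι ι F) = 1 + vecMulVec ((ν⁻¹ - 1) • w) ρ →
        ∀ y, y ᵥ* ((X⁻¹ : GL ι F) : Matrix ι ι F) = y + ((ν⁻¹ - 1) * (y ⬝ᵥ w)) • ρ := fun X w ρ ν hX y => by
      rw [hX, vecMul_add, vecMul_one, vecMul_vecMulVec, dotProduct_smul, smul_eq_mul]
    have e3 : (x • r a φ + z • r b φ) ᵥ* (((A * B * C)⁻¹ : GL ι F) : Matrix ι ι F) =
        x • r a φ + (z * s ^ 2) • r b φ := by
      rw [_root_.mul_inv_rev, _root_.mul_inv_rev, Units.val_mul, Units.val_mul, ← vecMul_vecMul, ← vecMul_vecMul,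
        e2 C _ _ _ hC2, e2 B _ _ _ hB2, e2 A _ _ _ hA2]
      have d1 : r a φ ⬝ᵥ wb = 0 := by simp [hwb, r, show blk kb = b from hkb, hab.symm]
      have d3 : r a φ ⬝ᵥ r b v = 0 := hoth a b _ v (hr a φ) hab
      have d5 : r b φ ⬝ᵥ r a v = 0 := hoth b a _ v (hr b φ) hab.symm
      have d4 : r b φ ⬝ᵥ r b v = 0 := by rw [hrs b _ (hr b φ)]; exact hbφ
      have d6 : r a φ ⬝ᵥ r a v = 0 := by rw [hrs a _ (hr a φ)]; exact haφ
      simp only [add_dotProduct, smul_dotProduct, d1, h2', d3, d4, d5, d6, smul_eq_mul, mul_zero, mul_one, add_zero,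
        zero_add, zero_smul, inv_inv]
      module
    have h' := h.conj hmem
    rw [e1, e3, Has.shift, smul_add, smul_smul, smul_smul] at h'
    refine h'.congr rfl ?_
    module
  have hQ1 : Has M v ((1 : F) • r a φ + (1 : F) • r b φ) := by simpa [← hφsum] using h
  have hdot : ∀ x z : F, (x • r a φ + z • r b φ) ⬝ᵥ v = 0 := fun x z => by
    simp [add_dotProduct, haφ, hbφ]
  have hgoal : ∀ z : F, z ≠ 0 → ¬ Has M v ((0 : F) • r a φ + z • r b φ) := by
    intro z hz h
    obtain ⟨k, hk, hvk⟩ := hout b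
    rw [zero_smul, zero_add] at h
    refine hcon (cross_of_fun_in_block hM h2 h (by simp [hbφ]) (sup_smul (hr b φ) z) ?_ hk hvk)
    intro he
    have := congrFun he kb
    simp [r, show blk kb = b from hkb, hz, hφkb] at this
  by_cases hs : ∃ s : F, s ≠ 0 ∧ s ^ 4 ≠ 1
  · obtain ⟨s, hs0, hs⟩ := hs
    have h1 := hscale _ _ (-s) (neg_ne_zero.mpr hs0) (hcent _ _ s hs0 hQ1)
    have h3 := hQ1.add_right h1 (hdot 1 1)
    refine hgoal (1 - s ^ 4) (sub_ne_zero.mpr (Ne.symm hs)) (h3.congr rfl ?_)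
    match_scalars <;> field_simp <;> ring
  · push Not at hs
    have h20 : (2 : F) ≠ 0 ∧ (3 : F) ≠ 0 := by
      constructor <;> intro h0
      · have hle : Fintype.card F ≤ 2 := by
          rw [← Finset.card_univ]
          refine le_trans (Finset.card_le_card (t := ({0, 1} : Finset F)) fun x _ => ?_) Finset.card_le_two
          simp only [Finset.mem_insert, Finset.mem_singleton]
          by_cases hx : x = 0
          · exact Or.inl hx
          · right
            have e := hs x hx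
            have : (x - 1) ^ 4 = 0 := by linear_combination e + (-2 * x ^ 3 + 3 * x ^ 2 - 2 * x + 1) * h0
            exact sub_eq_zero.mp (eq_zero_of_pow_eq_zero this)
        omega
      · haveI : Fact (Nat.Prime 3) := ⟨by norm_num⟩
        haveI : CharP F 3 := (CharP.charP_iff_prime_eq_zero (by norm_num)).mpr h0
        obtain ⟨n, -, hk⟩ := FiniteField.card F 3
        have hle : Fintype.card F ≤ 5 := by
          have hsub : (Finset.univ : Finset F) ⊆ insert 0 (Polynomial.X ^ 4 - 1 : Polynomial F).roots.toFinset := by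
            intro x _
            by_cases hx : x = 0
            · simp [hx]
            · refine Finset.mem_insert_of_mem (Multiset.mem_toFinset.mpr ?_)
              rw [Polynomial.mem_roots (by simpa using Polynomial.X_pow_sub_C_ne_zero (by norm_num : 0 < 4) (1 : F))]
              simp [hs x hx]
          rw [← Finset.card_univ]
          refine (Finset.card_le_card hsub).trans ((Finset.card_insert_le _ _).trans (Nat.succ_le_succ ?_))
          exact (Multiset.toFinset_card_le _).trans ((Polynomial.card_roots' _).trans (by compute_degree))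
        have hn1 : 1 ≤ (n : ℕ) := n.pos
        rcases Nat.lt_or_ge (n : ℕ) 2 with hk2 | hk2
        · rw [show (n : ℕ) = 1 by omega, pow_one] at hk
          omega
        · have := Nat.pow_le_pow_right (show 1 ≤ 3 by norm_num) hk2
          omega
    obtain ⟨h20, h30⟩ := h20
    have h1 := hscale _ _ (-(2 : F)⁻¹) (neg_ne_zero.mpr (inv_ne_zero h20)) hQ1
    have h3 := (hQ1.add_right hQ1 (hdot 1 1)).add_right h1 (by simp [add_dotProduct, haφ, hbφ])
    refine hgoal (3 / 2) (div_ne_zero h30 h20) (h3.congr rfl ?_)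
    match_scalars <;> field_simp <;> ring

/-- Adjoining an element to the stabiliser of two planes gives `SL`. -/
theorem sl_le_of_not_blockLike_two (e : ι ≃ Fin 2 × Fin 2) (hq : 4 ≤ Fintype.card F) {M : Subgroup (GL ι F)}
    (hM : ContainsBlock (fun i => (e i).1) M) {g : GL ι F} (hg : g ∈ M)
    (hgB : ¬ BlockLike (fun i => (e i).1) (g : Matrix ι ι F)) : Cfsg.Geo.specialLinear ι F ≤ M := by
  classical
  have htwo : TwoInBlocks (fun i => (e i).1) := by
    intro k
    obtain ⟨x, hx⟩ : ∃ x : Fin 2, x ≠ (e k).2 :=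
      Fintype.exists_ne_of_one_lt_card (by rw [Fintype.card_fin]; omega) _
    exact ⟨e.symm ((e k).1, x), fun he => hx (by rw [← he]; simp), by simp⟩
  obtain ⟨i, j, hij, h⟩ := exists_cross_two hM htwo hq (fun a b c hab => by omega) hg hgB
  exact sl_le_of_roots (roots_of_cross e (by simp [Fintype.card_congr e]) hM hij one_ne_zero h)

/-- The stabiliser of a decomposition is maximal in `SL`. -/
theorem decomposition_maximal_four {n : ℕ} (D : Fin 2 → Submodule F (Fin n → F))
    (hD : Cfsg.Geo.IsMDecomposition 2 D) (hq : 4 ≤ Fintype.card F) :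
    Cfsg.Geo.IsMaximalIn (Cfsg.Geo.specialLinear (Fin n) F)
      (Cfsg.Geo.decompositionStabilizer D ⊓ Cfsg.Geo.specialLinear (Fin n) F) := by
  classical
  refine Cfsg.Agent.H98.isMaximalIn_of inf_le_right ?_ fun M hHM hMS g hg hgH => ?_
  · -- a transvection outside
    let a : Fin 2 := ⟨0, by have := hD.two_le; omega⟩
    let b : Fin 2 := ⟨1, by have := hD.two_le; omega⟩
    have hab : a ≠ b := by simp [a, b]
    have hne : ∀ c, D c ≠ ⊥ := fun c h => by
      have := hD.finrank_eq c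
      rw [h, finrank_bot] at this
      exact hD.pos.ne this
    obtain ⟨w, hw, hw0⟩ := Submodule.exists_mem_ne_zero_of_ne_bot (hne a)
    obtain ⟨u, hu, hu0⟩ := Submodule.exists_mem_ne_zero_of_ne_bot (hne b)
    have hnot : w ∉ Submodule.span F {u} := by
      intro h
      have hle : Submodule.span F {u} ≤ D b := (Submodule.span_singleton_le_iff_mem _ _).mpr hu
      exact hw0 (Submodule.disjoint_def.mp (hD.indep.pairwiseDisjoint hab) w hw (hle h))
    obtain ⟨φ, hφ, hk⟩ := Cfsg.Agent.H98.exists_functional hnot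
    have hφu : φ u = 0 := LinearMap.mem_ker.mp (hk (Submodule.mem_span_singleton_self u))
    refine ⟨Cfsg.Agent.H98.transGL φ u hφu, Cfsg.Agent.H98.transGL_mem_sl φ u hφu, fun h =>
      Cfsg.Agent.H98.not_stab_of_spread hD hw hab ?_ ?_ h.1⟩
    · rw [Cfsg.Agent.H98.transGL_mulVec, hφ, one_smul, map_add, Cfsg.Agent.H98.comp_same hD hw,
        Cfsg.Agent.H98.comp_other hD hab.symm hu, add_zero]
      exact hw0
    · rw [Cfsg.Agent.H98.transGL_mulVec, hφ, one_smul, map_add, Cfsg.Agent.H98.comp_other hD hab hw,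
        Cfsg.Agent.H98.comp_same hD hu, zero_add]
      exact hu0
  obtain ⟨e, P, hP⟩ := exists_adapted hD
  have hdet : ∀ x : GL (Fin n) F, ((P * x * P⁻¹ : GL (Fin n) F) : Matrix (Fin n) (Fin n) F).det =
      (x : Matrix (Fin n) (Fin n) F).det := by
    intro x
    rw [Units.val_mul, Units.val_mul, det_mul, det_mul, mul_right_comm, ← det_mul, ← Units.val_mul,
      mul_inv_cancel, Units.val_one, det_one, one_mul]
  let M' : Subgroup (GL (Fin n) F) := M.comap (MulAut.conj P).toMonoidHom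
  have hmem : ∀ x, x ∈ M' ↔ P * x * P⁻¹ ∈ M := fun x => Iff.rfl
  have hSL : ∀ x : GL (Fin n) F, x ∈ Cfsg.Geo.specialLinear (Fin n) F ↔
      (x : Matrix (Fin n) (Fin n) F).det = 1 := by
    intro x
    rw [Cfsg.Geo.specialLinear, MonoidHom.mem_ker, ← Units.val_inj]
    rfl
  have hM' : ContainsBlock (fun i => (e i).1) M' := fun x hx hxB =>
    hHM ⟨conj_mem_stab_iff hD hP hxB, (hSL _).mpr (by
      change ((P * x * P⁻¹ : GL (Fin n) F) : Matrix (Fin n) (Fin n) F).det = 1
      rw [hdet]; exact hx)⟩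
  have hg' : P⁻¹ * g * P ∈ M' := by
    rw [hmem, show P * (P⁻¹ * g * P) * P⁻¹ = g by group]; exact hg
  have hgB : ¬ BlockLike (fun i => (e i).1) ((P⁻¹ * g * P : GL (Fin n) F) : Matrix (Fin n) (Fin n) F) := by
    intro h
    have := conj_mem_stab_iff hD hP h
    rw [show P * (P⁻¹ * g * P) * P⁻¹ = g by group] at this
    exact hgH ⟨this, hMS hg⟩
  have hle := sl_le_of_not_blockLike_two e hq hM' hg' hgB
  intro x hx
  have hdx : (P⁻¹ * x * P) ∈ Cfsg.Geo.specialLinear (Fin n) F := by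
    rw [hSL, ← hdet, show P * (P⁻¹ * x * P) * P⁻¹ = x by group]; exact (hSL x).mp hx
  have := (hmem _).mp (hle hdx)
  rwa [show P * (P⁻¹ * x * P) * P⁻¹ = x by group] at this

end Cfsg.Agent.H99.SLFour
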