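import Cfsg.Agent.H98.MaximalSLUnitary

set_option autoImplicit false

/-!
The similarity group of a unitary form is maximal in the special linear group in dimension at least four.
-/

namespace Cfsg.Agent.H99.SLFour

open Cfsg.Agent.H98 Cfsg.Agent.H98.Herm
open scoped Matrix

variable {ι : Type} [Fintype ι] [DecidableEq ι] {F : Type*} [Field F] [Finite F]
variable {σ : F ≃+* F} {f : (ι → F) → (ι → F) → F} (hf : Cfsg.Geo.IsUnitaryForm σ f)

include hf

/-- A subspace of isotropic vectors is totally isotropic. -/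
theorem ti_of_all {U : Submodule F (ι → F)} (h : ∀ u ∈ U, f u u = 0) : ∀ u ∈ U, ∀ v ∈ U, f u v = 0 := by
  intro u hu v hv
  by_contra hne
  obtain ⟨z, hz⟩ : ∃ z, z + σ z ≠ 0 := by
    obtain ⟨w, hw⟩ := exists_trace hf (a := (1 : F)) (map_one σ)
    exact ⟨w, hw ▸ one_ne_zero⟩
  obtain ⟨c, hc⟩ : ∃ c, σ c * f u v = z := ⟨σ (z / f u v), by rw [hf.involutive, div_mul_cancel₀ _ hne]⟩
  have h1 := h (u + c • v) (U.add_mem hu (U.smul_mem c hv))
  rw [hf.add_left, Herm.add_right hf, Herm.add_right hf, hf.smul_left, hf.smul_left, Herm.smul_right hf,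
    Herm.smul_right hf, h u hu, h v hv, hc] at h1
  have h2 : c * f v u = σ z := by rw [← hc, map_mul, hf.involutive, sigma_apply hf]
  rw [h2] at h1
  exact hz (by linear_combination h1)

/-- A subspace with an anisotropic vector takes every fixed value. -/
theorem exists_value {U : Submodule F (ι → F)} (hU : ∃ u ∈ U, f u u ≠ 0) (t : F) (ht : σ t = t) :
    ∃ z ∈ U, f z z = t := by
  obtain ⟨u, hu, hne⟩ := hU
  obtain ⟨x, hx⟩ := exists_norm hf (a := t / f u u) (by rw [map_div₀, ht, sigma_apply hf])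
  exact ⟨x • u, U.smul_mem x hu, by
    rw [hf.smul_left, Herm.smul_right hf, ← mul_assoc, hx, div_mul_cancel₀ _ hne]⟩

/-- A non-degenerate subspace of dimension at least two contains a hyperbolic pair. -/
theorem pair_of_nondeg (U : Submodule F (ι → F)) (hrad : ∀ u ∈ U, (∀ v ∈ U, f u v = 0) → u = 0)
    (hU : 2 ≤ Module.finrank F U) : ∃ e ∈ U, ∃ e' ∈ U, f e e = 0 ∧ f e' e' = 0 ∧ f e e' = 1 ∧ f e' e = 1 := by
  suffices h : ∃ e ∈ U, e ≠ 0 ∧ f e e = 0 by
    obtain ⟨e, he, he0, hee⟩ := h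
    obtain ⟨y, hy, hey⟩ : ∃ y ∈ U, f e y ≠ 0 := by
      by_contra hc; push Not at hc; exact he0 (hrad e he hc)
    obtain ⟨e', he', h1, h2, h3⟩ := partner_in hf he hy hee hey
    exact ⟨e, he, e', he', hee, h1, h2, h3⟩
  obtain ⟨x, hx, hx0⟩ := Submodule.exists_mem_ne_zero_of_ne_bot (show U ≠ ⊥ by rintro rfl; simp at hU)
  by_cases hxx : f x x = 0
  · exact ⟨x, hx, hx0, hxx⟩
  have hproj : ∀ v ∈ U, v - (f v x / f x x) • x ∈ U ∧ f (v - (f v x / f x x) • x) x = 0 := fun v hv =>
    ⟨U.sub_mem hv (U.smul_mem _ hx), by rw [Herm.sub_left hf, hf.smul_left, div_mul_cancel₀ _ hxx, sub_self]⟩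
  obtain ⟨y, hy, hyx, hy0⟩ : ∃ y ∈ U, f y x = 0 ∧ y ≠ 0 := by
    by_contra hc
    push Not at hc
    have hle : U ≤ Submodule.span F {x} := fun v hv => by
      have h := hc _ (hproj v hv).1 (hproj v hv).2
      exact Submodule.mem_span_singleton.mpr ⟨_, (sub_eq_zero.mp h).symm⟩
    have := Submodule.finrank_mono hle
    rw [finrank_span_singleton hx0] at this
    omega
  by_cases hyy : f y y = 0
  · exact ⟨y, hy, hy0, hyy⟩
  have hxy : f x y = 0 := (eq_zero_comm hf).mp hyx
  obtain ⟨l, hl⟩ := exists_norm hf (a := -(f x x) / f y y) (by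
    rw [map_div₀, map_neg, sigma_apply hf, sigma_apply hf])
  refine ⟨x + l • y, U.add_mem hx (U.smul_mem l hy), fun h0 => hxx ?_, ?_⟩
  · have := congrArg (fun z => f z x) h0
    simpa [hf.add_left, hf.smul_left, hyx, Herm.zero_left hf] using this
  · rw [hf.add_left, Herm.add_right hf, Herm.add_right hf, hf.smul_left, hf.smul_left, Herm.smul_right hf,
      Herm.smul_right hf, hxy, hyx, ← mul_assoc, hl, div_mul_cancel₀ _ hyy]
    ring

/-- A hyperbolic pair orthogonal to a given one. -/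
theorem pair_perp_pair (hn : 4 ≤ Fintype.card ι) {e e' : ι → F} (hee : f e e = 0) (he'e' : f e' e' = 0)
    (h1 : f e e' = 1) (h2 : f e' e = 1) :
    ∃ u v : ι → F, f u u = 0 ∧ f v v = 0 ∧ f u v = 1 ∧ f v u = 1 ∧ f u e = 0 ∧ f u e' = 0 ∧ f v e = 0 ∧ f v e' = 0 := by
  set U := LinearMap.ker (LinearMap.pi fun i => fl hf ((![e, e'] : Fin 2 → (ι → F)) i)) with hUdef
  have hU : ∀ x, x ∈ U ↔ f x e = 0 ∧ f x e' = 0 := fun x => by
    rw [hUdef, mem_perp hf]; simp [Fin.forall_fin_two]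
  obtain ⟨u, hu, v, hv, q1, q2, q3, q4⟩ := pair_of_nondeg hf U (fun u hu hall => by
    by_contra hu0
    obtain ⟨y, hy⟩ := (hf.nondegenerate u hu0).1
    have hy' : y - f y e' • e - f y e • e' ∈ U := (hU _).mpr
      ⟨by simp [Herm.sub_left hf, hf.smul_left, hee, h2], by simp [Herm.sub_left hf, hf.smul_left, he'e', h1]⟩
    have h := (eq_zero_comm hf).mp (hall _ hy')
    rw [Herm.sub_left hf, Herm.sub_left hf, hf.smul_left, hf.smul_left,
      (eq_zero_comm hf).mp ((hU u).mp hu).1, (eq_zero_comm hf).mp ((hU u).mp hu).2] at h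
    simp at h
    exact hy h) (by
    have := finrank_perp hf (![e, e'] : Fin 2 → (ι → F))
    rw [← hUdef] at this
    omega)
  exact ⟨u, v, q1, q2, q3, q4, ((hU u).mp hu).1, ((hU u).mp hu).2, ((hU v).mp hv).1, ((hU v).mp hv).2⟩

/-- A hyperbolic pair orthogonal to one vector. -/
theorem pair_perp_one (hn : 4 ≤ Fintype.card ι) {p : ι → F} (hp : p ≠ 0) :
    ∃ u v : ι → F, f u p = 0 ∧ f v p = 0 ∧ f u u = 0 ∧ f v v = 0 ∧ f u v = 1 ∧ f v u = 1 := by
  by_cases hpp : f p p = 0
  · obtain ⟨y, hy⟩ := (hf.nondegenerate p hp).2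
    obtain ⟨p', -, h1, h2, h3⟩ := partner_in hf (U := ⊤) Submodule.mem_top Submodule.mem_top hpp hy
    obtain ⟨u, v, q1, q2, q3, q4, q5, -, q7, -⟩ := pair_perp_pair hf hn hpp h1 h2 h3
    exact ⟨u, v, q5, q7, q1, q2, q3, q4⟩
  set U := LinearMap.ker (LinearMap.pi fun i => fl hf ((![p] : Fin 1 → (ι → F)) i)) with hUdef
  have hU : ∀ x, x ∈ U ↔ f x p = 0 := fun x => by rw [hUdef, mem_perp hf]; simp [Fin.forall_fin_one]
  obtain ⟨u, hu, v, hv, q⟩ := pair_of_nondeg hf U (fun u hu hall => by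
    by_contra hu0
    obtain ⟨y, hy⟩ := (hf.nondegenerate u hu0).1
    have hy' : y - (f y p / f p p) • p ∈ U := (hU _).mpr (by
      rw [Herm.sub_left hf, hf.smul_left, div_mul_cancel₀ _ hpp, sub_self])
    have h := (eq_zero_comm hf).mp (hall _ hy')
    rw [Herm.sub_left hf, hf.smul_left, (eq_zero_comm hf).mp ((hU u).mp hu), mul_zero, sub_zero] at h
    exact hy h) (by
    have := finrank_perp hf (![p] : Fin 1 → (ι → F))
    rw [← hUdef] at this
    omega)
  exact ⟨u, v, (hU u).mp hu, (hU v).mp hv, q⟩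

/-- A scalar of norm one other than a sign. -/
theorem exists_ratio : ∃ x : F, x ≠ 0 ∧ σ (σ x / x) ≠ σ x / x := by
  obtain ⟨y, hy⟩ : ∃ y, σ y ≠ y := by
    by_contra hc; push Not at hc; exact hf.ne_refl (RingEquiv.ext hc)
  suffices h : ∃ x : F, σ x ≠ x ∧ σ x ≠ -x by
    obtain ⟨x, h1, h2⟩ := h
    have hx0 : x ≠ 0 := fun h => h1 (by rw [h, map_zero])
    refine ⟨x, hx0, fun h => ?_⟩
    rw [map_div₀, hf.involutive, div_eq_div_iff (by simpa using hx0) hx0] at h
    rcases mul_self_eq_mul_self_iff.mp h.symm with h | h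
    · exact h1 h
    · exact h2 h
  by_cases hy' : σ y = -y
  · refine ⟨y + 1, fun h => hy ?_, fun h => hy ?_⟩
    · rw [map_add, map_one] at h
      exact add_right_cancel h
    · rw [map_add, map_one, hy'] at h
      have h0 : (2 : F) = 0 := by linear_combination h
      rw [hy']; linear_combination (-y) * h0
  · exact ⟨y, hy, hy'⟩

/-- An Eichler element of the unitary group between two orthogonal pairs. -/
def eich {a w : ι → F} (haa : f a a = 0) (hww : f w w = 0) (haw : f a w = 0) (hwa : f w a = 0) (c : F) : GL ι F :=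
  transGL (c • fl hf w) a (by simp [fl_apply, haw]) * transGL ((-σ c) • fl hf a) w (by simp [fl_apply, hwa])

theorem eich_mulVec {a w : ι → F} (haa : f a a = 0) (hww : f w w = 0) (haw : f a w = 0) (hwa : f w a = 0) (c : F)
    (x : ι → F) : (eich hf haa hww haw hwa c : Matrix ι ι F) *ᵥ x = x + (c * f x w) • a + (-(σ c) * f x a) • w := by
  simp only [eich, Units.val_mul, ← Matrix.mulVec_mulVec, transGL_mulVec, LinearMap.smul_apply, fl_apply,
    smul_eq_mul, hf.add_left, hf.smul_left, hww, mul_zero, add_zero]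
  module

theorem eich_iso {a w : ι → F} (haa : f a a = 0) (hww : f w w = 0) (haw : f a w = 0) (hwa : f w a = 0) (c : F)
    (x y : ι → F) : f ((eich hf haa hww haw hwa c : Matrix ι ι F) *ᵥ x)
      ((eich hf haa hww haw hwa c : Matrix ι ι F) *ᵥ y) = f x y := by
  simp only [eich_mulVec, hf.add_left, Herm.add_right hf, hf.smul_left, Herm.smul_right hf, map_mul, map_neg,
    hf.involutive, haa, hww, haw, hwa, sigma_apply hf]
  ring

theorem eich_mem {a w : ι → F} (haa : f a a = 0) (hww : f w w = 0) (haw : f a w = 0) (hwa : f w a = 0) (c : F) :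
    eich hf haa hww haw hwa c ∈ Cfsg.Geo.similarityGroup f ⊓ Cfsg.Geo.specialLinear ι F := by
  refine ⟨⟨1, fun x y => ?_⟩, Subgroup.mul_mem _ (transGL_mem_sl _ _ _) (transGL_mem_sl _ _ _)⟩
  rw [eich_iso hf, Units.val_one, one_mul]

variable {M : Subgroup (GL ι F)}
variable (hH : Cfsg.Geo.similarityGroup f ⊓ Cfsg.Geo.specialLinear ι F ≤ M)
include hH

variable (hn : 4 ≤ Fintype.card ι)
include hn

/-- A transvection with isotropic centre and wrong axis generates the full transvection group of that centre. -/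
theorem hasTv_all {a b : ι → F} (ha0 : a ≠ 0) (haa : f a a = 0) (hb : HasTv hf M a b) (hbne : ∀ k : F, b ≠ k • a) :
    ∀ x, f a x = 0 → HasTv hf M a x := by
  classical
  obtain ⟨ζ, hζ0, hζ⟩ := exists_skew hf
  have hab : f a b = 0 := hb.1
  set U := LinearMap.ker (LinearMap.pi fun i => fl hf ((![a] : Fin 1 → (ι → F)) i)) with hUdef
  have hU : ∀ x, x ∈ U ↔ f x a = 0 := fun x => by
    rw [hUdef, mem_perp hf]
    simp [Fin.forall_fin_one]
  obtain ⟨e₁, e₂, he₁', he₂', q1, q2, q3, q4⟩ := pair_perp_one hf hn ha0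
  have he₁ : e₁ ∈ U := (hU e₁).mpr he₁'
  have he₂ : e₂ ∈ U := (hU e₂).mpr he₂'
  -- an isotropic vector of `U` not orthogonal to `b`
  obtain ⟨w₁, hw₁U, hw₁, hbw⟩ : ∃ w ∈ U, f w w = 0 ∧ f b w ≠ 0 := by
    by_contra hc
    push Not at hc
    have hle := le_of_isotropic hf (U := U) (S := LinearMap.ker (fl hf b)) he₁ he₂ q1 q2 q3 q4
      (fun w hw hww => LinearMap.mem_ker.mpr ((eq_zero_comm hf).mp (hc w hw hww)))
    obtain ⟨y, hy⟩ := (hf.nondegenerate a ha0).1
    refine hbne (σ (f y b / f y a)) (fl_injective hf (LinearMap.ext fun x => ?_))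
    have hmem : x - (f x a / f y a) • y ∈ U := by
      rw [hU, Herm.sub_left hf, hf.smul_left, div_mul_cancel₀ _ hy, sub_self]
    have := LinearMap.mem_ker.mp (hle hmem)
    rw [fl_apply, Herm.sub_left hf, hf.smul_left, sub_eq_zero] at this
    rw [fl_apply, fl_apply, Herm.smul_right hf, hf.involutive, this]
    ring
  have haw₁ : f a w₁ = 0 := (eq_zero_comm hf).mp ((hU w₁).mp hw₁U)
  -- its partner
  obtain ⟨y, hyU, hy⟩ : ∃ y ∈ U, f w₁ y ≠ 0 := by
    by_contra hc
    push Not at hc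
    obtain ⟨z, hz⟩ := (hf.nondegenerate a ha0).1
    have hmem : b - (f b a / f z a) • z ∈ U := by
      rw [hU, Herm.sub_left hf, hf.smul_left, div_mul_cancel₀ _ hz, sub_self]
    have := hc _ hmem
    rw [(eq_zero_comm hf).mp hab, zero_div, zero_smul, sub_zero] at this
    exact hbw ((eq_zero_comm hf).mp this)
  obtain ⟨w₂, hw₂U, hw₂, h12, h21⟩ := partner_in hf hw₁U hyU hw₁ hy
  -- the scalar step
  have step : ∀ (k : F) (w w' : ι → F), HasTv hf M a (k • w) → f w' w' = 0 → f w' a = 0 → ∀ d, σ d = -d →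
      HasTv hf M a ((d * (k * f w w')) • w') := fun k w w' h hw' haw' d hd => by
    have := hasTv_move hf hH h hw' ((eq_zero_comm hf).mp haw') hd
    rwa [hf.smul_left] at this
  have hstart : HasTv hf M a ((ζ * f b w₁) • w₁) := hasTv_move hf hH hb hw₁ haw₁ hζ
  set k₀ := ζ * f b w₁
  have hk₀ : k₀ ≠ 0 := mul_ne_zero hζ0 hbw
  have hall₁ : ∀ t : F, HasTv hf M a (t • w₁) := by
    have hfix : ∀ s : F, σ s = s → HasTv hf M a ((s * k₀) • w₁) := fun s hs => by
      have := hasTv_move hf hH hb hw₁ haw₁ (d := s * ζ) (by rw [map_mul, hs, hζ, mul_neg])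
      convert this using 2
      simp only [k₀]; ring
    -- the partners
    obtain ⟨y', hy'⟩ := (hf.nondegenerate a ha0).2
    obtain ⟨a₀, -, ha₀, h1, h2⟩ := partner_in hf (U := ⊤) Submodule.mem_top Submodule.mem_top haa hy'
    set a' := a₀ - f a₀ w₂ • w₁ - f a₀ w₁ • w₂
    have haw₂ : f a w₂ = 0 := (eq_zero_comm hf).mp ((hU w₂).mp hw₂U)
    have hw₁a := (hU w₁).mp hw₁U
    have hw₂a := (hU w₂).mp hw₂U
    have haa' : f a a' = 1 := by
      simp only [a', Herm.sub_right hf, Herm.smul_right hf, haw₁, haw₂, h1, mul_zero, sub_zero]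
    have ha'w₁ : f a' w₁ = 0 := by
      simp only [a', Herm.sub_left hf, hf.smul_left, hw₁, h21]; ring
    have ha'w₂ : f a' w₂ = 0 := by
      simp only [a', Herm.sub_left hf, hf.smul_left, hw₂, h12]; ring
    obtain ⟨μ, hμ⟩ := exists_trace hf (a := -f a' a') (by rw [map_neg, sigma_apply hf])
    set a₁ := a' + μ • a with ha₁def
    have haa₁ : f a a₁ = 1 := by rw [ha₁def, Herm.add_right hf, Herm.smul_right hf, haa', haa, mul_zero, add_zero]
    have ha₁a : f a₁ a = 1 := by rw [hf.herm, haa₁, map_one]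
    have ha₁₁ : f a₁ a₁ = 0 := by
      simp only [ha₁def, hf.add_left, Herm.add_right hf, hf.smul_left, Herm.smul_right hf, haa, haa',
        show f a' a = 1 by rw [hf.herm, haa', map_one]]
      linear_combination hμ
    have ha₁w₁ : f a₁ w₁ = 0 := by rw [ha₁def, hf.add_left, hf.smul_left, ha'w₁, haw₁, mul_zero, add_zero]
    have ha₁w₂ : f a₁ w₂ = 0 := by rw [ha₁def, hf.add_left, hf.smul_left, ha'w₂, haw₂, mul_zero, add_zero]
    have hw₁a₁ : f w₁ a₁ = 0 := (eq_zero_comm hf).mp ha₁w₁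
    have hw₂a₁ : f w₂ a₁ = 0 := (eq_zero_comm hf).mp ha₁w₂
    let E : F → GL ι F := fun c => eich hf haa hw₂ haw₂ hw₂a c
    let E' : F → GL ι F := fun c => eich hf hw₁ ha₁₁ hw₁a₁ ha₁w₁ c
    let w : F → GL ι F := fun c => E c * E' (-c⁻¹) * E c
    have hwc : ∀ c : F, c ≠ 0 → (w c : Matrix ι ι F) *ᵥ a = (-c⁻¹) • w₁ ∧ (w c : Matrix ι ι F) *ᵥ w₁ = c • a := by
      intro c hc
      constructor <;>
        simp only [w, E, E', Units.val_mul, ← Matrix.mulVec_mulVec, eich_mulVec, hf.add_left, hf.smul_left, haa, haa₁,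
          haw₁, haw₂, hw₁, h12, hw₁a, hw₁a₁, mul_zero, mul_one, zero_smul, add_zero, zero_add] <;>
        match_scalars <;> field_simp <;> ring
    obtain ⟨x, hx0, hxσ⟩ := exists_ratio hf
    set ω := σ x / x with hω
    set X := w x * w (-1) with hX
    have hXa : (X : Matrix ι ι F) *ᵥ a = x • a := by
      rw [hX, Units.val_mul, ← Matrix.mulVec_mulVec, (hwc _ (neg_ne_zero.mpr one_ne_zero)).1, Matrix.mulVec_smul,
        (hwc x hx0).2]
      simp
    have hXw : (X : Matrix ι ι F) *ᵥ w₁ = x⁻¹ • w₁ := by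
      rw [hX, Units.val_mul, ← Matrix.mulVec_mulVec, (hwc _ (neg_ne_zero.mpr one_ne_zero)).2, Matrix.mulVec_smul,
        (hwc x hx0).1]
      simp
    have hwmem : ∀ c, w c ∈ Cfsg.Geo.similarityGroup f ⊓ Cfsg.Geo.specialLinear ι F := fun c =>
      Subgroup.mul_mem _ (Subgroup.mul_mem _ (eich_mem hf _ _ _ _ _) (eich_mem hf _ _ _ _ _)) (eich_mem hf _ _ _ _ _)
    have hXmem := Subgroup.mul_mem _ (hwmem x) (hwmem (-1))
    have hXiso : ∀ u v, f ((X : Matrix ι ι F) *ᵥ u) ((X : Matrix ι ι F) *ᵥ v) = f u v := by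
      intro u v
      simp only [hX, w, E, E', Units.val_mul, ← Matrix.mulVec_mulVec]
      simp only [eich_iso hf]
    have hrot : ∀ t, HasTv hf M a (t • w₁) → HasTv hf M a ((ω * t) • w₁) := by
      rintro t ⟨ht, htM⟩
      have := M.mul_mem (M.mul_mem (hH hXmem) htM) (M.inv_mem (hH hXmem))
      rw [conj_transGL] at this
      have hφ : (fl hf (t • w₁)).comp (Matrix.mulVecLin ((X⁻¹ : GL ι F) : Matrix ι ι F)) =
          fl hf ((t * x⁻¹) • w₁) := by
        refine LinearMap.ext fun z => ?_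
        rw [LinearMap.comp_apply, Matrix.mulVecLin_apply, fl_apply, fl_apply]
        conv_rhs => rw [← gl_mulVec_inv X z, ← smul_smul, ← hXw, ← Matrix.mulVec_smul, hXiso]
      have h0 : ((fl hf ((t * x⁻¹) • w₁)) : (ι → F) →ₗ[F] F) (x • a) = 0 := by
        rw [fl_apply, hf.smul_left, Herm.smul_right hf, haw₁, mul_zero, mul_zero]
      have h1' : transGL (fl hf ((t * x⁻¹) • w₁)) (x • a) h0 ∈ M := by
        convert this using 2
        · exact hφ.symm
        · exact hXa.symm
      rw [transGL_scale hf _ _ _ h0 (by rw [LinearMap.smul_apply, fl_apply, Herm.smul_right hf, haw₁, mul_zero, smul_zero])] at h1'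
      refine hasTv_of_eq hf ?_ h1'
      rw [show (ω * t) • w₁ = σ x • ((t * x⁻¹) • w₁) by rw [smul_smul, hω, div_eq_mul_inv]; ring_nf, fl_smul hf (σ x),
        hf.involutive]
    intro t
    have hω0 : ω - σ ω ≠ 0 := sub_ne_zero.mpr (Ne.symm hxσ)
    set r := t / k₀
    set s₂ := (r - σ r) / (ω - σ ω) with hs₂def
    have hs₂ : σ s₂ = s₂ := by
      rw [hs₂def, map_div₀, map_sub, map_sub, hf.involutive, hf.involutive, ← neg_sub r (σ r), ← neg_sub ω (σ ω),
        neg_div_neg_eq]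
    have hs₁ : σ (r - s₂ * ω) = r - s₂ * ω := by
      have e : s₂ * (ω - σ ω) = r - σ r := div_mul_cancel₀ _ hω0
      rw [map_sub, map_mul, hs₂]
      linear_combination e
    have := hasTv_add hf (hfix _ hs₁) (hrot _ (hfix s₂ hs₂))
    rw [← add_smul] at this
    convert this using 2
    have e : r * k₀ = t := div_mul_cancel₀ _ hk₀
    linear_combination -e
  let S : Submodule F (ι → F) :=
    { carrier := {x | ∀ t : F, HasTv hf M a (t • x)}
      add_mem' := fun {x y} hx hy t => by rw [smul_add]; exact hasTv_add hf (hx t) (hy t)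
      zero_mem' := fun t => by rw [smul_zero]; exact hasTv_zero hf a
      smul_mem' := fun c x hx t => by rw [smul_smul]; exact hx _ }
  have hw₁S : w₁ ∈ S := hall₁
  have hnext : ∀ w w' : ι → F, w ∈ S → f w' w' = 0 → f w' a = 0 → f w w' ≠ 0 → w' ∈ S := by
    intro w w' hw hw' haw' hne t
    have := step (t / (ζ * f w w')) w w' (hw _) hw' haw' ζ hζ
    convert this using 2
    field_simp
  have hw₂S : w₂ ∈ S := hnext w₁ w₂ hw₁S hw₂ ((hU w₂).mp hw₂U) (h12 ▸ one_ne_zero)
  have hUS : U ≤ S := by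
    refine le_of_isotropic hf hw₁U hw₂U hw₁ hw₂ h12 h21 fun w hw hww => ?_
    by_cases h1 : f w₁ w = 0
    · by_cases h2 : f w₂ w = 0
      · have hsum : w + w₁ ∈ S := hnext w₂ (w + w₁) hw₂S
          (by rw [hf.add_left, Herm.add_right hf, Herm.add_right hf, hww, hw₁, h1, (eq_zero_comm hf).mp h1]; ring)
          (by rw [hf.add_left, (hU w).mp hw, (hU w₁).mp hw₁U, add_zero])
          (by rw [Herm.add_right hf, h2, h21, zero_add]; exact one_ne_zero)
        have := S.sub_mem hsum hw₁S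
        rwa [add_sub_cancel_right] at this
      · exact hnext w₂ w hw₂S hww ((hU w).mp hw) h2
    · exact hnext w₁ w hw₁S hww ((hU w).mp hw) h1
  intro x hx
  have := hUS ((hU x).mpr ((eq_zero_comm hf).mp hx)) 1
  rwa [one_smul] at this

/-- A transvection with isotropic centre and wrong axis generates the special linear group. -/
theorem sl_le_of_hasTv {a b : ι → F} (hMsl : M ≤ Cfsg.Geo.specialLinear ι F) (ha0 : a ≠ 0) (haa : f a a = 0)
    (hb : HasTv hf M a b) (hbne : ∀ k : F, b ≠ k • a) : Cfsg.Geo.specialLinear ι F ≤ M := by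
  classical
  obtain ⟨ζ, hζ0, hζ⟩ := exists_skew hf
  let C : Set (ι → F) := {v | ∀ (φ : (ι → F) →ₗ[F] F) (h : φ v = 0), transGL φ v h ∈ M}
  have haC : a ∈ C := by
    intro φ h
    obtain ⟨x, rfl⟩ := fl_surjective hf φ
    obtain ⟨h', hm⟩ := hasTv_all hf hH hn ha0 haa hb hbne x h
    exact hm
  have hsmul : ∀ (k : F), ∀ v ∈ C, k • v ∈ C := fun k v hv φ h => by
    rcases eq_or_ne k 0 with rfl | hk
    · convert M.one_mem using 1
      exact gl_ext fun y => by simp
    have h' : (k • φ) v = 0 := by rwa [LinearMap.smul_apply, ← map_smul]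
    rw [transGL_scale hf φ v k h h']
    exact hv _ _
  have hconj : ∀ g ∈ M, ∀ v ∈ C, (g : Matrix ι ι F) *ᵥ v ∈ C := by
    intro g hg v hv φ h
    have h' : (φ.comp (Matrix.mulVecLin (g : Matrix ι ι F))) v = 0 := h
    have := M.mul_mem (M.mul_mem hg (hv _ h')) (M.inv_mem hg)
    rw [conj_transGL] at this
    convert this using 1
    exact gl_ext fun y => by simp [gl_mulVec_inv]
  have hadd : ∀ u ∈ C, ∀ v ∈ C, u + v ∈ C := by
    intro u hu v hv
    by_cases hmem : u ∈ Submodule.span F {v}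
    · obtain ⟨k, rfl⟩ := Submodule.mem_span_singleton.mp hmem
      rw [show k • v + v = (k + 1) • v by rw [add_smul, one_smul]]
      exact hsmul _ _ hv
    · obtain ⟨φ, hφu, hφker⟩ := exists_functional hmem
      have hφv : φ v = 0 := hφker (Submodule.mem_span_singleton_self v)
      have := hconj _ (hv φ hφv) u hu
      rwa [transGL_mulVec, hφu, one_smul] at this
  let W : Submodule F (ι → F) :=
    { carrier := C
      add_mem' := fun {u v} hu hv => hadd u hu v hv
      zero_mem' := by simpa using hsmul 0 a haC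
      smul_mem' := fun k v hv => hsmul k v hv }
  have hnon : ∀ v w : ι → F, v ∈ W → f w w = 0 → f v w ≠ 0 → w ∈ W := by
    intro v w hv hw hne
    have h1 : (uT hf hw ζ : Matrix ι ι F) *ᵥ v ∈ W := hconj _ (hH (uT_mem_sim hf hw hζ)) v hv
    have h2 := W.smul_mem (ζ * f v w)⁻¹ (W.sub_mem h1 hv)
    rwa [uT_mulVec, add_sub_cancel_left, smul_smul, inv_mul_cancel₀ (mul_ne_zero hζ0 hne), one_smul] at h2
  have hiso : ∀ w, f w w = 0 → w ∈ W := by
    intro w hw
    rcases eq_or_ne w 0 with rfl | hw0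
    · exact W.zero_mem
    obtain ⟨u, huu, hau, hwu⟩ := exists_common hf ha0 hw0 haa hw
    exact hnon u w (hnon a u haC huu hau) hw (fun h => hwu ((eq_zero_comm hf).mp h))
  obtain ⟨e, -, e', -, q1, q2, q3, q4⟩ := exists_pair_in hf ⊤ (by rw [finrank_top, Module.finrank_pi]; omega)
  have htop : (⊤ : Submodule F (ι → F)) ≤ W :=
    le_of_isotropic hf Submodule.mem_top Submodule.mem_top q1 q2 q3 q4 fun w _ hw => hiso w hw
  exact sl_le_of_transvections M fun φ v h => (htop (Submodule.mem_top (x := v))) φ h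

omit hH hn in
/-- A linear map preserving the form on isotropic vectors up to individual factors is a similarity. -/
theorem similarity_of_isotropic (hn : 4 ≤ Fintype.card ι) (g : GL ι F)
    (h : ∀ v, f v v = 0 → v ≠ 0 → ∃ l : F, ∀ y, f y v = l * f ((g : Matrix ι ι F) *ᵥ y) ((g : Matrix ι ι F) *ᵥ v))
    (hiso : ∀ v, f v v = 0 → f ((g : Matrix ι ι F) *ᵥ v) ((g : Matrix ι ι F) *ᵥ v) = 0) :
    g ∈ Cfsg.Geo.similarityGroup f := by
  classical
  obtain ⟨ζ, hζ0, hζ⟩ := exists_skew hf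
  set G : (ι → F) → (ι → F) := fun v => (g : Matrix ι ι F) *ᵥ v with hG
  obtain ⟨e, -, e', -, q1, q2, q3, q4⟩ := exists_pair_in hf ⊤ (by rw [finrank_top, Module.finrank_pi]; omega)
  have he0 : e ≠ 0 := fun h0 => by rw [h0, Herm.zero_left hf] at q3; exact zero_ne_one q3
  obtain ⟨L, hL⟩ := h e q1 he0
  have hsame : ∀ v w l l', f v v = 0 → f w w = 0 → f v w ≠ 0 → (∀ y, f y v = l * f (G y) (G v)) →
      (∀ y, f y w = l' * f (G y) (G w)) → l = l' := by
    intro v w l l' hv hw hne hl hl'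
    obtain ⟨μ, hμ0, hμ⟩ : ∃ μ : F, μ ≠ 0 ∧ σ μ * f v w + μ * f w v = 0 :=
      ⟨ζ * f v w, mul_ne_zero hζ0 hne, by rw [map_mul, hζ, sigma_apply hf]; ring⟩
    set z := v + μ • w with hzdef
    have hzz : f z z = 0 := by
      rw [hzdef, hf.add_left, Herm.add_right hf, Herm.add_right hf, hf.smul_left, hf.smul_left, Herm.smul_right hf, Herm.smul_right hf,
        hv, hw]
      linear_combination hμ
    have hz0 : z ≠ 0 := fun h0 => by
      have h1 : f v z = 0 := by rw [h0, Herm.zero_right hf]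
      rw [hzdef, Herm.add_right hf, Herm.smul_right hf, hv, zero_add, mul_eq_zero] at h1
      exact h1.elim (fun h2 => hμ0 (by rw [← hf.involutive μ, h2, map_zero])) hne
    obtain ⟨lz, hlz⟩ := h z hzz hz0
    have hGz : G z = G v + μ • G w := by simp [hG, hzdef, Matrix.mulVec_add, Matrix.mulVec_smul]
    have key : ∀ y, l * f (G y) (G v) + σ μ * (l' * f (G y) (G w)) =
        lz * (f (G y) (G v) + σ μ * f (G y) (G w)) := fun y => by
      have := hlz y
      rw [hzdef, Herm.add_right hf, Herm.smul_right hf, hl, hl'] at this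
      rw [this]
      change lz * f (G y) (G z) = _
      rw [hGz, Herm.add_right hf, Herm.smul_right hf]
    have hσμ : σ μ ≠ 0 := by simpa using hμ0
    have hvw : f (G v) (G w) ≠ 0 := fun h0 => hne (by rw [hl', h0, mul_zero])
    have hwv : f (G w) (G v) ≠ 0 := fun h0 => hvw ((eq_zero_comm hf).mp h0)
    have k1 := key v
    rw [hiso v hv, mul_zero, zero_add, zero_add, ← mul_assoc, ← mul_assoc] at k1
    have k2 := key w
    rw [hiso w hw, mul_zero, mul_zero, add_zero, add_zero] at k2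
    have e1 : l' = lz := mul_left_cancel₀ hσμ ((mul_right_cancel₀ hvw k1).trans (mul_comm _ _))
    exact (mul_right_cancel₀ hwv k2).trans e1.symm
  let S : Submodule F (ι → F) :=
    { carrier := {x | ∀ y, f y x = L * f (G y) (G x)}
      add_mem' := fun {x x'} hx hx' y => by
        rw [Herm.add_right hf, hx, hx']; simp only [hG, Matrix.mulVec_add, Herm.add_right hf]; ring
      zero_mem' := fun y => by simp [hG, Herm.zero_right hf]
      smul_mem' := fun c x hx y => by
        rw [Herm.smul_right hf, hx]; simp only [hG, Matrix.mulVec_smul, Herm.smul_right hf]; ring }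
  have htop : (⊤ : Submodule F (ι → F)) ≤ S := by
    refine le_of_isotropic hf Submodule.mem_top Submodule.mem_top q1 q2 q3 q4 fun w _ hw => ?_
    rcases eq_or_ne w 0 with rfl | hw0
    · exact S.zero_mem
    obtain ⟨l, hl⟩ := h w hw hw0
    obtain ⟨u, huu, heu, hwu⟩ := exists_common hf he0 hw0 q1 hw
    obtain ⟨lu, hlu⟩ := h u huu (fun h0 => heu (by rw [h0, Herm.zero_right hf]))
    have e1 := hsame e u L lu q1 huu heu hL hlu
    have e2 := hsame w u l lu hw huu hwu hl hlu
    intro y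
    rw [e1, ← e2]; exact hl y
  have hL0 : L ≠ 0 := fun h0 => by
    have := hL e'
    rw [q4, h0, zero_mul] at this
    exact one_ne_zero this
  refine ⟨Units.mk0 L⁻¹ (inv_ne_zero hL0), fun u v => ?_⟩
  rw [Units.val_mk0, htop (Submodule.mem_top (x := v)) u, ← mul_assoc, inv_mul_cancel₀ hL0, one_mul]

omit hH hn in
/-- The similarity group is maximal. -/
theorem sl_unitary_maximal (hn : 4 ≤ Fintype.card ι) :
    Cfsg.Geo.IsMaximalIn (Cfsg.Geo.specialLinear ι F)
      (Cfsg.Geo.similarityGroup f ⊓ Cfsg.Geo.specialLinear ι F) := by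
  classical
  obtain ⟨ζ, hζ0, hζ⟩ := exists_skew hf
  obtain ⟨e, -, e', -, q1, q2, q3, q4⟩ := exists_pair_in hf ⊤ (by rw [finrank_top, Module.finrank_pi]; omega)
  have hstrict : ∃ x ∈ Cfsg.Geo.specialLinear ι F,
      x ∉ Cfsg.Geo.similarityGroup f ⊓ Cfsg.Geo.specialLinear ι F := by
    set U₂ := LinearMap.ker (LinearMap.pi fun i => fl hf ((![e, e'] : Fin 2 → (ι → F)) i)) with hU₂def
    have hU₂ : ∀ x, x ∈ U₂ ↔ f x e = 0 ∧ f x e' = 0 := fun x => by
      rw [hU₂def, mem_perp hf]; simp [Fin.forall_fin_two]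
    obtain ⟨z, hzU, hz1⟩ : ∃ z ∈ U₂, f z z = 1 := by
      refine exists_value hf ?_ 1 (map_one σ)
      obtain ⟨u, v, -, -, q, -, u1, u2, v1, v2⟩ := pair_perp_pair hf hn q1 q2 q3 q4
      by_contra hall
      push Not at hall
      have := ti_of_all hf hall u ((hU₂ u).mpr ⟨u1, u2⟩) v ((hU₂ v).mpr ⟨v1, v2⟩)
      rw [q] at this
      exact one_ne_zero this
    obtain ⟨ze, ze'⟩ := (hU₂ z).mp hzU
    have hze : fl hf e z = 0 := ze
    refine ⟨transGL (fl hf e) z hze, transGL_mem_sl _ _ _, fun hm => ?_⟩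
    obtain ⟨c, hc⟩ := hm.1
    have := hc e' e'
    rw [transGL_mulVec, fl_apply, q4, one_smul, q2, mul_zero, hf.add_left, Herm.add_right hf, Herm.add_right hf, q2, hz1,
      ze', (eq_zero_comm hf).mp ze'] at this
    simp at this
  refine isMaximalIn_of inf_le_right hstrict fun M h1 h2 g hgM hgH => ?_
  have hgS : g ∉ Cfsg.Geo.similarityGroup f := fun h => hgH ⟨h, h2 hgM⟩
  by_contra hcon
  apply hgS
  have hgen : ∀ v, f v v = 0 → v ≠ 0 →
      ∃ (φ : (ι → F) →ₗ[F] F) (h : φ ((g : Matrix ι ι F) *ᵥ v) = 0),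
        transGL φ ((g : Matrix ι ι F) *ᵥ v) h ∈ M ∧ ∀ y, φ ((g : Matrix ι ι F) *ᵥ y) = ζ * f y v := by
    intro v hv hv0
    have := M.mul_mem (M.mul_mem hgM (h1 (uT_mem_sim hf hv hζ))) (M.inv_mem hgM)
    rw [uT, conj_transGL] at this
    exact ⟨_, _, this, fun y => by simp [gl_inv_mulVec, fl_apply]⟩
  have hgne : ∀ v : ι → F, v ≠ 0 → (g : Matrix ι ι F) *ᵥ v ≠ 0 := fun v hv h0 =>
    hv (gl_mulVec_injective g (by change (g : Matrix ι ι F) *ᵥ v = (g : Matrix ι ι F) *ᵥ 0; rw [h0, Matrix.mulVec_zero]))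
  have hiso : ∀ v, f v v = 0 → f ((g : Matrix ι ι F) *ᵥ v) ((g : Matrix ι ι F) *ᵥ v) = 0 := by
    intro v hv
    rcases eq_or_ne v 0 with rfl | hv0
    · rw [Matrix.mulVec_zero, Herm.zero_left hf]
    by_contra hne
    obtain ⟨φ, hφ, hmem, hφy⟩ := hgen v hv hv0
    set a := (g : Matrix ι ι F) *ᵥ v with ha
    obtain ⟨p, hp⟩ := fl_surjective hf φ
    have hp0 : p ≠ 0 := fun h0 => by
      obtain ⟨y, hy⟩ := (hf.nondegenerate v hv0).1
      have := hφy y
      rw [← hp, h0, fl_apply, Herm.zero_right hf] at this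
      exact mul_ne_zero hζ0 hy this.symm
    set U := LinearMap.ker (LinearMap.pi fun i => fl hf ((![p] : Fin 1 → (ι → F)) i)) with hUdef
    have hU : ∀ x, x ∈ U ↔ f x p = 0 := fun x => by
      rw [hUdef, mem_perp hf]; simp [Fin.forall_fin_one]
    have haU : a ∈ U := (hU a).mpr (by rw [← fl_apply hf, hp]; exact hφ)
    obtain ⟨e₁, e₂, he₁', he₂', r1, r2, r3, r4⟩ := pair_perp_one hf hn hp0
    have he₁ : e₁ ∈ U := (hU e₁).mpr he₁'
    have he₂ : e₂ ∈ U := (hU e₂).mpr he₂'
    obtain ⟨w, hwU, hww, haw⟩ : ∃ w ∈ U, f w w = 0 ∧ f a w ≠ 0 := by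
      by_contra hc
      push Not at hc
      exact hne (LinearMap.mem_ker.mp (le_of_isotropic hf (U := U) (S := LinearMap.ker (fl hf a)) he₁ he₂ r1 r2 r3 r4
        (fun w hw hww => LinearMap.mem_ker.mpr ((eq_zero_comm hf).mp (hc w hw hww))) haU))
    have hφw : φ w = 0 := by rw [← hp, fl_apply]; exact (hU w).mp hwU
    set T := uT hf hww ζ with hT
    have hTM := h1 (uT_mem_sim hf hww hζ)
    have hc := M.mul_mem (M.mul_mem (M.mul_mem hTM hmem) (M.inv_mem hTM)) (M.inv_mem hmem)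
    set k := ζ * f a w with hk
    have hk0 : k ≠ 0 := mul_ne_zero hζ0 haw
    have he : T * transGL φ a hφ * T⁻¹ * (transGL φ a hφ)⁻¹ =
        transGL (k • φ) w (by rw [LinearMap.smul_apply, hφw, smul_zero]) := by
      rw [transGL_inv, conj_transGL]
      refine gl_ext fun y => ?_
      have hcomp : ∀ x, φ (((T⁻¹ : GL ι F) : Matrix ι ι F) *ᵥ x) = φ x := fun x => by
        set u := ((T⁻¹ : GL ι F) : Matrix ι ι F) *ᵥ x
        have hx : (T : Matrix ι ι F) *ᵥ u = x := gl_mulVec_inv T x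
        conv_rhs => rw [← hx]
        rw [hT, uT_mulVec, map_add, map_smul, hφw, smul_zero, add_zero]
      simp only [Units.val_mul, ← Matrix.mulVec_mulVec, transGL_mulVec, LinearMap.comp_apply, Matrix.mulVecLin_apply,
        hcomp, LinearMap.neg_apply, map_add, map_smul, smul_eq_mul, hφ, mul_zero, add_zero, LinearMap.smul_apply]
      simp only [hT, uT_mulVec, hk]
      module
    rw [he] at hc
    have hb : k • φ = fl hf (σ k • p) := by rw [fl_smul, hf.involutive, hp]
    refine hcon (sl_le_of_hasTv hf h1 hn h2 ?_ hww (hasTv_of_eq hf hb hc) fun l hl => ?_)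
    · exact fun h0 => haw (by rw [h0, Herm.zero_right hf])
    · have e1 : f a (σ k • p) = 0 := by rw [Herm.smul_right hf, (hU a).mp haU, mul_zero]
      rw [hl, Herm.smul_right hf] at e1
      rcases mul_eq_zero.mp e1 with h0 | h0
      · have hl0 : l = 0 := by rw [← hf.involutive l, h0, map_zero]
        rw [hl0, zero_smul, smul_eq_zero] at hl
        exact hl.elim (fun h => hk0 (by rw [← hf.involutive k, h, map_zero])) hp0
      · exact haw h0
  refine similarity_of_isotropic hf hn g (fun v hv hv0 => ?_) hiso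
  obtain ⟨φ, hφ, hmem, hφy⟩ := hgen v hv hv0
  obtain ⟨p, hp⟩ := fl_surjective hf φ
  by_cases hex : ∃ k : F, p = k • (g : Matrix ι ι F) *ᵥ v
  · obtain ⟨k, hk⟩ := hex
    refine ⟨σ k / ζ, fun y => ?_⟩
    have := hφy y
    rw [← hp, hk, fl_apply, Herm.smul_right hf] at this
    rw [div_mul_eq_mul_div, this, mul_div_cancel_left₀ _ hζ0]
  · push Not at hex
    exact absurd (sl_le_of_hasTv hf h1 hn h2 (hgne v hv0) (hiso v hv) (hasTv_of_eq hf hp.symm hmem) hex) hcon

end Cfsg.Agent.H99.SLFour
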